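import Mathlib
import Cfsg.Prelude.Def_LieRecognition

/-!
# The rank-one set-up: doubly transitive groups with a split point stabiliser
-/

set_option linter.unusedSectionVars false
set_option linter.style.longLine false
set_option linter.unusedVariables false
set_option autoImplicit false

namespace CfsgLib.RankOne

open Cfsg MulAction

variable {G Ω : Type*} [Group G] [MulAction G Ω] {a : Ω} {t : G} {Q : Subgroup G}

/-- Double transitivity in elementary form. -/
lemma two_trans (hS : IsRankOneSetup G Ω a t Q) {b c b' c' : Ω} (h : b ≠ c) (h' : b' ≠ c') :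
    ∃ g : G, g • b = b' ∧ g • c = c' := by
  have := hS.two_transitive
  exact (MulAction.is_two_pretransitive_iff (G := G) (α := Ω)).1 this h h'

lemma ta_ne (hS : IsRankOneSetup G Ω a t Q) : t • a ≠ a := fun h => hS.not_mem h

lemma t_inv (hS : IsRankOneSetup G Ω a t Q) : t⁻¹ = t := inv_eq_of_mul_eq_one_left hS.mul_self

lemma t_t (hS : IsRankOneSetup G Ω a t Q) (b : Ω) : t • t • b = b := by
  rw [smul_smul, hS.mul_self, one_smul]

/-- Elements of `Q` fixing `t • a` are trivial. -/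
lemma eq_one_of_fix_ta (hS : IsRankOneSetup G Ω a t Q) {x : G} (hx : x ∈ Q) (h : x • (t • a) = t • a) : x = 1 := by
  have : x ∈ Q ⊓ stabilizer G (t • a) := ⟨hx, h⟩
  rw [hS.inf_eq_bot] at this
  simpa using this

/-- Two-point stabiliser. -/
abbrev twoPt (a b : Ω) : Subgroup G := stabilizer G a ⊓ stabilizer G b

/-- Factorisation of `G_a`. -/
lemma exists_Q_D (hS : IsRankOneSetup G Ω a t Q) {g : G} (hg : g ∈ stabilizer G a) :
    ∃ q ∈ Q, ∃ d ∈ (stabilizer G a ⊓ stabilizer G (t • a)), g = q * d := by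
  have hg' : g ∈ Q ⊔ (stabilizer G a ⊓ stabilizer G (t • a)) := by rwa [hS.sup_eq]
  rw [Subgroup.sup_eq_closure] at hg'
  induction hg' using Subgroup.closure_induction with
  | mem x hx =>
    rcases hx with hx | hx
    · exact ⟨x, hx, 1, one_mem _, by simp⟩
    · exact ⟨1, one_mem _, x, hx, by simp⟩
  | one => exact ⟨1, one_mem _, 1, one_mem _, by simp⟩
  | mul x y hx hy ihx ihy =>
    have hx' : x ∈ stabilizer G a := by
      have : x ∈ Q ⊔ (stabilizer G a ⊓ stabilizer G (t • a)) := by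
        rw [Subgroup.sup_eq_closure]; exact hx
      rwa [hS.sup_eq] at this
    have hy' : y ∈ stabilizer G a := by
      have : y ∈ Q ⊔ (stabilizer G a ⊓ stabilizer G (t • a)) := by
        rw [Subgroup.sup_eq_closure]; exact hy
      rwa [hS.sup_eq] at this
    obtain ⟨q₁, hq₁, d₁, hd₁, rfl⟩ := ihx hx'
    obtain ⟨q₂, hq₂, d₂, hd₂, rfl⟩ := ihy hy'
    refine ⟨q₁ * (d₁ * q₂ * d₁⁻¹), mul_mem hq₁ (hS.conj_mem _ hd₁.1 _ hq₂), d₁ * d₂, mul_mem hd₁ hd₂, ?_⟩
    group
  | inv x hx ih =>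
    have hx' : x ∈ stabilizer G a := by
      have : x ∈ Q ⊔ (stabilizer G a ⊓ stabilizer G (t • a)) := by
        rw [Subgroup.sup_eq_closure]; exact hx
      rwa [hS.sup_eq] at this
    obtain ⟨q, hq, d, hd, rfl⟩ := ih hx'
    refine ⟨d⁻¹ * q⁻¹ * d⁻¹⁻¹, hS.conj_mem _ (inv_mem hd.1) _ (inv_mem hq), d⁻¹, inv_mem hd, ?_⟩
    group

/-- `Q` is transitive off `a` (from `t • a`). -/
lemma exists_Q_smul (hS : IsRankOneSetup G Ω a t Q) {b : Ω} (hb : b ≠ a) : ∃ q ∈ Q, q • (t • a) = b := by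
  obtain ⟨g, hg, hg'⟩ := two_trans hS (b := a) (c := t • a) (b' := a) (c' := b) (ta_ne hS).symm hb.symm
  obtain ⟨q, hq, d, hd, rfl⟩ := exists_Q_D hS (g := g) hg
  refine ⟨q, hq, ?_⟩
  rw [mul_smul, show d • (t • a) = t • a from hd.2] at hg'
  exact hg'

/-- A nonidentity element of `Q` fixes only `a`. -/
lemma eq_one_of_fix (hS : IsRankOneSetup G Ω a t Q) {x : G} (hx : x ∈ Q) {b : Ω} (hb : b ≠ a) (h : x • b = b) : x = 1 := by
  obtain ⟨q, hq, rfl⟩ := exists_Q_smul hS hb
  have h1 : (q⁻¹ * x * q) • (t • a) = t • a := by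
    simp only [mul_smul]
    rw [h, inv_smul_smul]
  have h2 := eq_one_of_fix_ta hS (mul_mem (mul_mem (inv_mem hq) hx) hq) h1
  have : x = q * (q⁻¹ * x * q) * q⁻¹ := by group
  rw [this, h2]
  group

lemma fix_eq_a (hS : IsRankOneSetup G Ω a t Q) {x : G} (hx : x ∈ Q) (h1 : x ≠ 1) {b : Ω} (h : x • b = b) : b = a := by
  by_contra hb
  exact h1 (eq_one_of_fix hS hx hb h)

/-- `Q` acts regularly on `Ω ∖ {a}`. -/
lemma Q_regular (hS : IsRankOneSetup G Ω a t Q) {b c : Ω} (hb : b ≠ a) (hc : c ≠ a) : ∃! x : Q, (x : G) • b = c := by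
  obtain ⟨p, hp, rfl⟩ := exists_Q_smul hS hb
  obtain ⟨q, hq, rfl⟩ := exists_Q_smul hS hc
  refine ⟨⟨q * p⁻¹, mul_mem hq (inv_mem hp)⟩, ?_, ?_⟩
  · simp [mul_smul]
  · rintro ⟨x, hx⟩ h
    simp only at h
    have h1 : (q⁻¹ * x * p) • (t • a) = t • a := by
      simp only [mul_smul]
      rw [h, inv_smul_smul]
    have h2 := eq_one_of_fix_ta hS (mul_mem (mul_mem (inv_mem hq) hx) hp) h1
    apply Subtype.ext
    simp only
    have : x = q * (q⁻¹ * x * p) * p⁻¹ := by group
    rw [this, h2]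
    group

lemma Q_unique (hS : IsRankOneSetup G Ω a t Q) {x y : G} (hx : x ∈ Q) (hy : y ∈ Q) {b : Ω} (hb : b ≠ a) (h : x • b = y • b) : x = y := by
  have h1 : (y⁻¹ * x) • b = b := by
    rw [mul_smul, h, inv_smul_smul]
  have := eq_one_of_fix hS (mul_mem (inv_mem hy) hx) hb h1
  rw [inv_mul_eq_one] at this
  exact this.symm

lemma Q_ne_bot (hS : IsRankOneSetup G Ω a t Q) [Finite G] : ∃ x ∈ Q, x ≠ 1 := by
  obtain ⟨r, hr⟩ := hS.even_card
  by_contra hc
  have hc : ∀ x ∈ Q, x = 1 := fun x hx => by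
    by_contra h
    exact hc ⟨x, hx, h⟩
  have : Q = ⊥ := by
    rw [eq_bot_iff]
    intro x hx
    simpa using hc x hx
  rw [this] at hr
  simp at hr
  omega

/-- The normaliser of a subset of `Q` containing a non-identity element lies in `G_a`. -/
theorem normalizer_le (hS : IsRankOneSetup G Ω a t Q) (X : Set G) (hX : X ⊆ (Q : Set G)) (hx : ∃ x ∈ X, x ≠ 1) :
    Subgroup.normalizer X ≤ stabilizer G a := by
  intro g hg
  obtain ⟨x, hxX, hx1⟩ := hx
  by_contra hga
  -- `g⁻¹ x g ∈ X ⊆ Q` fixes `g⁻¹ a`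
  have hg' : g⁻¹ ∈ Subgroup.normalizer X := inv_mem hg
  have hmem : g⁻¹ * x * g⁻¹⁻¹ ∈ X := (Subgroup.mem_set_normalizer_iff.1 hg' x).1 hxX
  have hne : g⁻¹ • a ≠ a := by
    intro h
    apply hga
    have : g • g⁻¹ • a = g • a := by rw [h]
    rw [smul_inv_smul] at this
    exact this.symm
  have h1 : (g⁻¹ * x * g⁻¹⁻¹) • (g⁻¹ • a) = g⁻¹ • a := by
    simp only [mul_smul, inv_inv, smul_inv_smul]
    rw [show x • a = a from hS.le (hX hxX)]
  have h2 := eq_one_of_fix hS (hX hmem) hne h1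
  apply hx1
  have : x = g * (g⁻¹ * x * g⁻¹⁻¹) * g⁻¹ := by group
  rw [this, h2]
  group

theorem normalizer_Q [Finite G] (hS : IsRankOneSetup G Ω a t Q) : Subgroup.normalizer (Q : Set G) = stabilizer G a := by
  apply le_antisymm
  · obtain ⟨x, hx, hx1⟩ := Q_ne_bot hS
    exact normalizer_le hS _ subset_rfl ⟨x, hx, hx1⟩
  · intro g hg
    rw [Subgroup.mem_set_normalizer_iff]
    intro x
    constructor
    · exact hS.conj_mem g hg x
    · intro h
      have := hS.conj_mem g⁻¹ (inv_mem hg) _ h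
      have e : g⁻¹ * (g * x * g⁻¹) * g⁻¹⁻¹ = x := by group
      rwa [e] at this

theorem normalizer_stab [Finite G] (hS : IsRankOneSetup G Ω a t Q) : Subgroup.normalizer (stabilizer G a : Set G) = stabilizer G a := by
  apply le_antisymm
  · intro g hg
    by_contra hga
    obtain ⟨x, hx, hx1⟩ := Q_ne_bot hS
    have hg' : g⁻¹ ∈ Subgroup.normalizer (stabilizer G a : Set G) := inv_mem hg
    have hmem : g⁻¹ * x * g⁻¹⁻¹ ∈ stabilizer G a := (Subgroup.mem_set_normalizer_iff.1 hg' x).1 (hS.le hx)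
    have hfix : x • (g • a) = g • a := by
      have h1 := (Subgroup.mem_set_normalizer_iff.1 hg x).1 (hS.le hx)
      have h2 : (g⁻¹ * x * g⁻¹⁻¹) • a = a := hmem
      simp only [mul_smul, inv_inv] at h2
      have := congrArg (fun y => g • y) h2
      simpa using this
    exact hx1 (eq_one_of_fix hS hx (fun h => hga h) hfix)
  · exact Subgroup.le_normalizer

/-- Finiteness of `Ω`. -/
lemma finite_omega [Finite G] (hS : IsRankOneSetup G Ω a t Q) : Finite Ω := by
  have : Function.Surjective (fun g : G => g • a) := by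
    intro b
    by_cases hb : b = a
    · exact ⟨1, by simp [hb]⟩
    · obtain ⟨g, hg, -⟩ := two_trans hS (b := a) (c := t • a) (b' := b) (c' := a) (ta_ne hS).symm hb
      exact ⟨g, hg⟩
  exact Finite.of_surjective _ this

/-- `Ω` is `Q` plus a point. -/
noncomputable def equivOption (hS : IsRankOneSetup G Ω a t Q) : Ω ≃ Option Q := by
  classical
  refine Equiv.symm (Equiv.ofBijective (fun o : Option Q => match o with
    | none => a
    | some x => (x : G) • (t • a)) ⟨?_, ?_⟩)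
  · rintro (_ | x) (_ | y) h
    · rfl
    · simp only at h
      exfalso
      have h1 := h
      have : (y : G)⁻¹ • a = t • a := by rw [inv_smul_eq_iff]; exact h1
      rw [show (y : G)⁻¹ • a = a from hS.le (inv_mem y.2)] at this
      exact ta_ne hS this.symm
    · simp only at h
      exfalso
      have : (x : G)⁻¹ • a = t • a := by rw [inv_smul_eq_iff]; exact h.symm
      rw [show (x : G)⁻¹ • a = a from hS.le (inv_mem x.2)] at this
      exact ta_ne hS this.symm
    · simp only at h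
      congr 1
      apply Subtype.ext
      exact Q_unique hS x.2 y.2 (ta_ne hS) h
  · intro b
    by_cases hb : b = a
    · exact ⟨none, hb.symm⟩
    · obtain ⟨q, hq, rfl⟩ := exists_Q_smul hS hb
      exact ⟨some ⟨q, hq⟩, rfl⟩

lemma card_omega [Finite G] (hS : IsRankOneSetup G Ω a t Q) : Nat.card Ω = Nat.card Q + 1 := by
  rw [Nat.card_congr (equivOption hS), Finite.card_option]

lemma odd_card_omega [Finite G] (hS : IsRankOneSetup G Ω a t Q) : Odd (Nat.card Ω) := by
  rw [card_omega hS]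
  exact hS.even_card.add_one

/-- `|G_a| = |Q| |D|`. -/
lemma card_stab [Finite G] (hS : IsRankOneSetup G Ω a t Q) :
    Nat.card (stabilizer G a) = Nat.card Q * Nat.card ↥(stabilizer G a ⊓ stabilizer G (t • a)) := by
  classical
  rw [← Nat.card_prod]
  symm
  apply Nat.card_congr
  refine Equiv.ofBijective (fun p => ⟨(p.1 : G) * (p.2 : G), mul_mem (hS.le p.1.2) p.2.2.1⟩) ⟨?_, ?_⟩
  · rintro ⟨⟨q, hq⟩, ⟨d, hd⟩⟩ ⟨⟨q', hq'⟩, ⟨d', hd'⟩⟩ h
    simp only [Subtype.mk.injEq] at h
    have h1 : (q * d) • (t • a) = (q' * d') • (t • a) := by rw [h]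
    simp only [mul_smul] at h1
    rw [show d • (t • a) = t • a from hd.2, show d' • (t • a) = t • a from hd'.2] at h1
    have h2 := Q_unique hS hq hq' (ta_ne hS) h1
    subst h2
    have h3 := mul_left_cancel h
    subst h3
    rfl
  · rintro ⟨g, hg⟩
    obtain ⟨q, hq, d, hd, rfl⟩ := exists_Q_D hS hg
    exact ⟨(⟨q, hq⟩, ⟨d, hd⟩), rfl⟩

lemma index_stab [Finite G] (hS : IsRankOneSetup G Ω a t Q) : (stabilizer G a).index = Nat.card Ω := by
  have : IsPretransitive G Ω := by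
    refine ⟨fun x y => ?_⟩
    have h1 : ∀ b : Ω, ∃ g : G, g • a = b := by
      intro b
      by_cases hb : b = a
      · exact ⟨1, by simp [hb]⟩
      · obtain ⟨g, hg, -⟩ := two_trans hS (b := a) (c := t • a) (b' := b) (c' := a) (ta_ne hS).symm hb
        exact ⟨g, hg⟩
    obtain ⟨g, hg⟩ := h1 x
    obtain ⟨g', hg'⟩ := h1 y
    exact ⟨g' * g⁻¹, by rw [mul_smul, ← hg, inv_smul_smul, hg']⟩
  rw [MulAction.index_stabilizer]
  rw [MulAction.orbit_eq_univ]
  simp

lemma card_group [Finite G] (hS : IsRankOneSetup G Ω a t Q) :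
    Nat.card G = Nat.card Q * Nat.card ↥(stabilizer G a ⊓ stabilizer G (t • a)) * (Nat.card Q + 1) := by
  rw [← card_omega hS, ← card_stab hS, ← index_stab hS]
  exact (Subgroup.card_mul_index _).symm

/-- Canonical form. -/
lemma canonical [Finite G] (hS : IsRankOneSetup G Ω a t Q) {g : G} (hg : g ∉ stabilizer G a) :
    ∃! p : G × G, p.1 ∈ stabilizer G a ∧ p.2 ∈ Q ∧ g = p.1 * t * p.2 := by
  have hne : g⁻¹ • a ≠ a := by
    intro h
    apply hg
    have : g • g⁻¹ • a = g • a := by rw [h]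
    rw [smul_inv_smul] at this
    exact this.symm
  obtain ⟨⟨y, hy⟩, hy1, hy2⟩ := Q_regular hS hne (ta_ne hS)
  simp only at hy1
  have hx : g * y⁻¹ * t⁻¹ ∈ stabilizer G a := by
    show (g * y⁻¹ * t⁻¹) • a = a
    simp only [mul_smul]
    rw [t_inv hS, show y⁻¹ • t • a = g⁻¹ • a by rw [← hy1, inv_smul_smul], smul_inv_smul]
  refine ⟨(g * y⁻¹ * t⁻¹, y), ⟨hx, hy, by simp⟩, ?_⟩
  rintro ⟨x', y'⟩ ⟨h1, h2, h3⟩
  simp only at h1 h2 h3
  have h4 : y' • g⁻¹ • a = t • a := by
    have h0 : x'⁻¹ • a = a := by rw [inv_smul_eq_iff]; exact (show x' • a = a from h1).symm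
    rw [h3]
    simp only [mul_inv_rev, mul_smul]
    rw [h0, smul_inv_smul, t_inv hS]
  have h5 := Q_unique hS h2 hy hne (h4.trans hy1.symm)
  subst h5
  ext
  · simp only
    rw [h3]
    group
  · rfl

end CfsgLib.RankOne
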