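import Mathlib
import Cfsg.Agent.Lib.RankOne.Basic

/-!
# The rank-one set-up: involutions
-/

set_option linter.unusedSectionVars false
set_option linter.style.longLine false
set_option linter.unusedVariables false
set_option autoImplicit false

namespace CfsgLib.RankOne

open Cfsg MulAction
open scoped Pointwise

section General

variable {H : Type*} [Group H]

/-- An involutive self-map of a finite set of odd size has a fixed point. -/
lemma exists_fixed_of_odd {α : Type*} [Finite α] (f : α → α) (hf : Function.Involutive f) (h : Odd (Nat.card α)) :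
    ∃ x, f x = x := by
  classical
  have := Fintype.ofFinite α
  have h2 : Fact (Nat.Prime 2) := ⟨Nat.prime_two⟩
  let e : Function.End α := f
  have he : e ^ 2 ^ 1 = 1 := by
    funext x
    show (e ^ 2) x = x
    rw [pow_two]
    exact hf x
  have := Equiv.Perm.card_fixedPoints_modEq (p := 2) (n := 1) he
  by_contra hc
  push Not at hc
  have h0 : Fintype.card (Function.fixedPoints e) = 0 := by
    rw [Fintype.card_eq_zero_iff]
    refine ⟨fun x => hc x.1 x.2⟩
  rw [Nat.card_eq_fintype_card] at h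
  rw [h0] at this
  have h3 : Fintype.card α % 2 = 1 := Nat.odd_iff.1 h
  simp [Nat.ModEq, h3] at this

/-- The reflection in a dihedral group with odd rotation subgroup. -/
lemma exists_reflection {s w : H} (hs : s * s = 1) (hw : w * w = 1) (h : Odd (orderOf (s * w))) :
    ∃ r : H, r * r = 1 ∧ r * s * r = w := by
  obtain ⟨m, hm⟩ := h
  set x := s * w with hx
  have hsx : s * x * s = x⁻¹ := by
    have hs' : s⁻¹ = s := inv_eq_of_mul_eq_one_left hs
    have hw' : w⁻¹ = w := inv_eq_of_mul_eq_one_left hw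
    rw [hx, mul_inv_rev, hs', hw', ← mul_assoc, hs, one_mul]
  have hsp : ∀ k : ℕ, s * x ^ k * s = (x⁻¹) ^ k := by
    intro k
    induction k with
    | zero => simp [hs]
    | succ k ih =>
      rw [pow_succ, pow_succ, ← ih, ← hsx]
      calc s * (x ^ k * x) * s = s * x ^ k * (s * s) * x * s := by rw [hs]; group
        _ = s * x ^ k * s * (s * x * s) := by group
  have hx1 : x ^ (2 * m + 1) = 1 := by rw [← hm]; exact pow_orderOf_eq_one x
  refine ⟨x ^ m * s, ?_, ?_⟩
  · have := hsp m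
    calc x ^ m * s * (x ^ m * s) = x ^ m * (s * x ^ m * s) := by group
      _ = 1 := by rw [this, inv_pow, mul_inv_cancel]
  · have h1 : s * x ^ m * s = (x⁻¹) ^ m := hsp m
    have h2 : x ^ (m + m) * x = 1 := by
      rw [← pow_succ, show m + m + 1 = 2 * m + 1 by ring, hx1]
    calc x ^ m * s * s * (x ^ m * s) = x ^ m * x ^ m * s := by
          rw [mul_assoc (x ^ m) s s, hs]; group
      _ = x⁻¹ * s := by
          rw [← pow_add, eq_inv_of_mul_eq_one_left h2]
      _ = w := by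
          rw [hx, mul_inv_rev, inv_eq_of_mul_eq_one_left hs, inv_eq_of_mul_eq_one_left hw]
          rw [mul_assoc, hs, mul_one]

lemma exists_conj_of_odd {s w : H} (hs : s * s = 1) (hw : w * w = 1) (h : Odd (orderOf (s * w))) :
    ∃ g : H, g * s * g⁻¹ = w := by
  obtain ⟨r, hr, hr'⟩ := exists_reflection hs hw h
  refine ⟨r, ?_⟩
  rw [inv_eq_of_mul_eq_one_left hr]
  exact hr'

/-- A "dihedral" product of even order yields a central involution. -/
lemma exists_central_of_even [Finite H] {s u : H} (hs : s * s = 1) (hu : u * u = 1) (hne : s * u ≠ 1)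
    (h : ¬ Odd (orderOf (s * u))) :
    ∃ z : H, z ≠ 1 ∧ z * z = 1 ∧ s * z = z * s ∧ u * z = z * u := by
  set x := s * u with hx
  have hpos : 0 < orderOf x := orderOf_pos x
  obtain ⟨m, hm⟩ := Nat.not_odd_iff_even.1 h
  have hm0 : 0 < m := by omega
  have hxm : x ^ (m + m) = 1 := by rw [← hm]; exact pow_orderOf_eq_one x
  have hne1 : x ^ m ≠ 1 := by
    intro h1
    have := orderOf_dvd_of_pow_eq_one h1
    have := Nat.le_of_dvd hm0 this
    omega
  have hz2 : x ^ m * x ^ m = 1 := by rw [← pow_add, hxm]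
  have hzi : (x ^ m)⁻¹ = x ^ m := inv_eq_of_mul_eq_one_left hz2
  have hsi : s⁻¹ = s := inv_eq_of_mul_eq_one_left hs
  have hui : u⁻¹ = u := inv_eq_of_mul_eq_one_left hu
  have hsx : s * x * s = x⁻¹ := by
    rw [hx, mul_inv_rev, hsi, hui, ← mul_assoc, hs, one_mul]
  have hux : u * x * u = x⁻¹ := by
    rw [hx, mul_inv_rev, hsi, hui, mul_assoc, mul_assoc, hu, mul_one]
  have hs' : s * x ^ m * s = x ^ m := by
    have e1 : s * x ^ m * s⁻¹ = (s * x * s⁻¹) ^ m := (conj_pow).symm
    rw [hsi] at e1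
    rw [e1, hsx, inv_pow, hzi]
  have hu' : u * x ^ m * u = x ^ m := by
    have e1 : u * x ^ m * u⁻¹ = (u * x * u⁻¹) ^ m := (conj_pow).symm
    rw [hui] at e1
    rw [e1, hux, inv_pow, hzi]
  refine ⟨x ^ m, hne1, hz2, ?_, ?_⟩
  · calc s * x ^ m = (s * x ^ m * s) * s := by rw [mul_assoc _ s s, hs, mul_one]
      _ = x ^ m * s := by rw [hs']
  · calc u * x ^ m = (u * x ^ m * u) * u := by rw [mul_assoc _ u u, hu, mul_one]
      _ = x ^ m * u := by rw [hu']

/-- Square roots in a group of odd order: a half inside the cyclic group. -/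
lemma exists_half_of_odd [Finite H] {k : H} (h : Odd (orderOf k)) : ∃ n : ℕ, (k ^ n) * (k ^ n) = k := by
  obtain ⟨m, hm⟩ := h
  refine ⟨m + 1, ?_⟩
  rw [← pow_add, show m + 1 + (m + 1) = (2 * m + 1) + 1 by ring, pow_succ, ← hm, pow_orderOf_eq_one, one_mul]

end General

variable {G Ω : Type*} [Group G] [MulAction G Ω] {a : Ω} {t : G} {Q : Subgroup G}

/-- Conjugate set-up. -/
lemma conj_setup [Finite G] (hS : IsRankOneSetup G Ω a t Q) (g : G) :
    IsRankOneSetup G Ω (g • a) (g * t * g⁻¹) (Q.map (MulAut.conj g).toMonoidHom) := by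
  have hst : ∀ b : Ω, stabilizer G (g • b) = (stabilizer G b).map (MulAut.conj g).toMonoidHom := fun b => stabilizer_smul_eq_stabilizer_map_conj g b
  have he : (g * t * g⁻¹) • g • a = g • t • a := by simp [mul_smul]
  refine ⟨hS.two_transitive, by rw [show g * t * g⁻¹ * (g * t * g⁻¹) = g * (t * t) * g⁻¹ by group, hS.mul_self]; simp, ?_, ?_, ?_, ?_, ?_, ?_, ?_, ?_⟩
  · intro h
    apply hS.ne_one
    have : t = g⁻¹ * (g * t * g⁻¹) * g := by group
    rw [this, h]
    simp
  · intro h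
    apply hS.not_mem
    have h1 : (g * t * g⁻¹) • g • a = g • a := h
    rw [he] at h1
    exact smul_left_cancel g h1
  · rw [hst]
    exact Subgroup.map_mono hS.le
  · rintro h hh x ⟨y, hy, rfl⟩
    rw [hst] at hh
    obtain ⟨h', hh', rfl⟩ := hh
    refine ⟨h' * y * h'⁻¹, hS.conj_mem _ hh' _ hy, ?_⟩
    simp [MulAut.conj_apply]
    group
  · rw [he, hst, ← Subgroup.map_inf_eq _ _ _ (MulEquiv.injective _), hS.inf_eq_bot, Subgroup.map_bot]
  · rw [he, hst, hst, ← Subgroup.map_inf_eq _ _ _ (MulEquiv.injective _), ← Subgroup.map_sup, hS.sup_eq]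
  · have : Nat.card (Q.map (MulAut.conj g).toMonoidHom) = Nat.card Q := Subgroup.card_map_of_injective (MulEquiv.injective _)
    rw [this]
    exact hS.even_card
  · rw [he, hst, hst, ← Subgroup.map_inf_eq _ _ _ (MulEquiv.injective _)]
    have : Nat.card ((stabilizer G a ⊓ stabilizer G (t • a)).map (MulAut.conj g).toMonoidHom) = Nat.card ↥(stabilizer G a ⊓ stabilizer G (t • a)) :=
      Subgroup.card_map_of_injective (MulEquiv.injective _)
    rw [this]
    exact hS.odd_card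

lemma exists_smul_eq (hS : IsRankOneSetup G Ω a t Q) (b c : Ω) : ∃ g : G, g • b = c := by
  have h1 : ∀ b : Ω, ∃ g : G, g • a = b := by
    intro b
    by_cases hb : b = a
    · exact ⟨1, by simp [hb]⟩
    · obtain ⟨g, hg, -⟩ := two_trans hS (b := a) (c := t • a) (b' := b) (c' := a) (ta_ne hS).symm hb
      exact ⟨g, hg⟩
  obtain ⟨g, hg⟩ := h1 b
  obtain ⟨g', hg'⟩ := h1 c
  exact ⟨g' * g⁻¹, by rw [mul_smul, ← hg, inv_smul_smul, hg']⟩

/-- Elements of `G_a` of `2`-power order lie in `Q`. -/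
lemma mem_Q_of_pow [Finite G] (hS : IsRankOneSetup G Ω a t Q) {s : G} (hs : s ∈ stabilizer G a) {k : ℕ} (hk : s ^ 2 ^ k = 1) : s ∈ Q := by
  obtain ⟨q, hq, d, hd, rfl⟩ := exists_Q_D hS hs
  -- `(q d)^n = q' d^n` with `q' ∈ Q`
  have h1 : ∀ n : ℕ, ∃ q' ∈ Q, (q * d) ^ n = q' * d ^ n := by
    intro n
    induction n with
    | zero => exact ⟨1, one_mem _, by simp⟩
    | succ n ih =>
      obtain ⟨q', hq', e⟩ := ih
      refine ⟨q' * (d ^ n * q * (d ^ n)⁻¹), mul_mem hq' (hS.conj_mem _ (pow_mem hd.1 _) _ hq), ?_⟩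
      rw [pow_succ, e, pow_succ]
      group
  obtain ⟨q', hq', e⟩ := h1 (2 ^ k)
  rw [hk] at e
  have h2 : d ^ 2 ^ k = q'⁻¹ := by
    have := eq_inv_of_mul_eq_one_right e.symm
    exact this
  have h3 : d ^ 2 ^ k = 1 := by
    have h4 : d ^ 2 ^ k ∈ Q := by rw [h2]; exact inv_mem hq'
    have h5 : (d ^ 2 ^ k) • (t • a) = t • a := pow_mem hd.2 _
    exact eq_one_of_fix_ta hS h4 h5
  have h6 : d = 1 := by
    have h7 : orderOf d ∣ 2 ^ k := orderOf_dvd_of_pow_eq_one h3
    obtain ⟨j, -, hj⟩ := (Nat.dvd_prime_pow Nat.prime_two).1 h7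
    have h8 : orderOf (⟨d, hd⟩ : ↥(stabilizer G a ⊓ stabilizer G (t • a))) ∣ Nat.card ↥(stabilizer G a ⊓ stabilizer G (t • a)) := orderOf_dvd_natCard _
    rw [Subgroup.orderOf_mk, hj] at h8
    have h9 : j = 0 := by
      by_contra hj0
      have : 2 ∣ Nat.card ↥(stabilizer G a ⊓ stabilizer G (t • a)) := dvd_trans (dvd_pow_self 2 hj0) h8
      have h10 := hS.odd_card
      rw [Nat.odd_iff] at h10
      omega
    rw [h9, pow_zero] at hj
    exact orderOf_eq_one_iff.1 hj
  rw [h6, mul_one]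
  exact hq

lemma inv_mem_Q [Finite G] (hS : IsRankOneSetup G Ω a t Q) {s : G} (hs : s ∈ stabilizer G a) (h2 : s * s = 1) : s ∈ Q :=
  mem_Q_of_pow hS hs (k := 1) (by simpa [pow_two] using h2)

/-- Some Sylow `2`-subgroup of `G` lies in `Q`. -/
lemma exists_sylow_le [Finite G] (hS : IsRankOneSetup G Ω a t Q) : ∃ P : Sylow 2 G, (P : Subgroup G) ≤ Q := by
  have h2 : Fact (Nat.Prime 2) := ⟨Nat.prime_two⟩
  have hfin := finite_omega hS
  obtain ⟨P⟩ : Nonempty (Sylow 2 G) := inferInstance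
  have hodd := odd_card_omega hS
  have hn : ¬ 2 ∣ Nat.card Ω := by
    rw [Nat.odd_iff] at hodd
    omega
  obtain ⟨b, hb⟩ := P.isPGroup'.nonempty_fixed_point_of_prime_not_dvd_card Ω hn
  obtain ⟨g, hg⟩ := exists_smul_eq hS b a
  refine ⟨g • P, ?_⟩
  intro x hx
  have hx' : x ∈ MulAut.conj g • (P : Subgroup G) := by
    rw [Sylow.smul_def, Sylow.pointwise_smul_def] at hx
    exact hx
  obtain ⟨y, hy, rfl⟩ := (Subgroup.mem_smul_pointwise_iff_exists _ _ _).1 hx'
  have hy' : y • b = b := by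
    have := (mem_fixedPoints.1 hb) ⟨y, hy⟩
    exact this
  have hstab : MulAut.conj g • y ∈ stabilizer G a := by
    show (g * y * g⁻¹) • a = a
    rw [← hg, mul_smul, mul_smul, inv_smul_smul, hy']
  obtain ⟨k, hk⟩ := (IsPGroup.iff_orderOf.1 P.isPGroup') ⟨y, hy⟩
  refine mem_Q_of_pow hS hstab (k := k) ?_
  rw [Subgroup.orderOf_mk] at hk
  have : y ^ 2 ^ k = 1 := by rw [← hk]; exact pow_orderOf_eq_one y
  rw [← smul_pow', this, smul_one]

/-- An involution has a fixed point. -/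
lemma exists_fix [Finite G] (hS : IsRankOneSetup G Ω a t Q) {u : G} (hu : u * u = 1) : ∃ b : Ω, u • b = b := by
  have hfin := finite_omega hS
  refine exists_fixed_of_odd (fun b => u • b) (fun b => ?_) (odd_card_omega hS)
  simp only
  rw [smul_smul, hu, one_smul]

/-- An involution has a unique fixed point. -/
lemma fix_unique [Finite G] (hS : IsRankOneSetup G Ω a t Q) {u : G} (hu1 : u ≠ 1) (hu : u * u = 1) {b c : Ω}
    (hb : u • b = b) (hc : u • c = c) : b = c := by
  by_contra hbc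
  obtain ⟨g, hg⟩ := exists_smul_eq hS b a
  have h1 : (g * u * g⁻¹) ∈ stabilizer G a := by
    show (g * u * g⁻¹) • a = a
    rw [← hg, mul_smul, mul_smul, inv_smul_smul, hb]
  have h2 : (g * u * g⁻¹) * (g * u * g⁻¹) = 1 := by
    rw [show g * u * g⁻¹ * (g * u * g⁻¹) = g * (u * u) * g⁻¹ by group, hu]; simp
  have h3 := inv_mem_Q hS h1 h2
  have h4 : (g * u * g⁻¹) • (g • c) = g • c := by
    simp only [mul_smul, inv_smul_smul, hc]
  have h5 : g • c ≠ a := by
    rw [← hg]
    intro h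
    exact hbc (smul_left_cancel g h).symm
  have h6 := eq_one_of_fix hS h3 h5 h4
  apply hu1
  have : u = g⁻¹ * (g * u * g⁻¹) * g := by group
  rw [this, h6]
  simp

/-- Commuting with an involution preserves its fixed point. -/
lemma fix_of_comm [Finite G] (hS : IsRankOneSetup G Ω a t Q) {u v : G} (hu1 : u ≠ 1) (hu : u * u = 1) {b : Ω}
    (hb : u • b = b) (hc : v * u = u * v) : v • b = b := by
  apply fix_unique hS hu1 hu _ hb
  rw [smul_smul, ← hc, mul_smul, hb]

/-- If `s` is an involution of `G_a` and `u` an involution outside `G_a`, then `s u` has odd order. -/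
theorem odd_orderOf_mul [Finite G] (hS : IsRankOneSetup G Ω a t Q) {s u : G} (hs : s ∈ stabilizer G a) (hs1 : s ≠ 1) (hs2 : s * s = 1)
    (hu : u ∉ stabilizer G a) (hu1 : u ≠ 1) (hu2 : u * u = 1) : Odd (orderOf (s * u)) := by
  by_contra hc
  have hne : s * u ≠ 1 := by
    intro h
    have : u = s⁻¹ := eq_inv_of_mul_eq_one_right h
    apply hu
    rw [this]
    exact inv_mem hs
  obtain ⟨z, hz1, hz2, hsz, huz⟩ := exists_central_of_even hs2 hu2 hne hc
  obtain ⟨c, hc'⟩ := exists_fix hS hz2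
  have h1 := fix_of_comm hS hz1 hz2 hc' hsz
  have h2 := fix_of_comm hS hz1 hz2 hc' huz
  have h3 : c = a := fix_unique hS hs1 hs2 h1 hs
  rw [h3] at h2
  exact hu h2

/-- `Q` contains an involution. -/
lemma exists_inv_Q [Finite G] (hS : IsRankOneSetup G Ω a t Q) : ∃ s ∈ Q, s ≠ 1 ∧ s * s = 1 := by
  have h2 : Fact (Nat.Prime 2) := ⟨Nat.prime_two⟩
  obtain ⟨x, hx⟩ := exists_prime_orderOf_dvd_card' (G := Q) 2 hS.even_card.two_dvd
  refine ⟨x.1, x.2, ?_, ?_⟩
  · intro h
    have : x = 1 := Subtype.ext h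
    rw [this, orderOf_one] at hx
    omega
  · have := pow_orderOf_eq_one x
    rw [hx, pow_two] at this
    have := congrArg Subtype.val this
    simpa using this

/-- Every involution is conjugate to `t`. -/
lemma conj_t [Finite G] (hS : IsRankOneSetup G Ω a t Q) {u : G} (hu1 : u ≠ 1) (hu2 : u * u = 1) : ∃ g : G, g * u * g⁻¹ = t := by
  obtain ⟨s, hs, hs1, hs2⟩ := exists_inv_Q hS
  have ht := odd_orderOf_mul hS (hS.le hs) hs1 hs2 hS.not_mem hS.ne_one hS.mul_self
  obtain ⟨g, hg⟩ := exists_conj_of_odd hs2 hS.mul_self ht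
  by_cases hua : u ∈ stabilizer G a
  · exact exists_conj_of_odd hu2 hS.mul_self (odd_orderOf_mul hS hua hu1 hu2 hS.not_mem hS.ne_one hS.mul_self)
  · obtain ⟨g', hg'⟩ := exists_conj_of_odd hs2 hu2 (odd_orderOf_mul hS (hS.le hs) hs1 hs2 hua hu1 hu2)
    refine ⟨g * g'⁻¹, ?_⟩
    rw [← hg', ← hg]
    group

theorem conj_all [Finite G] (hS : IsRankOneSetup G Ω a t Q) {u v : G} (hu1 : u ≠ 1) (hu2 : u * u = 1) (hv1 : v ≠ 1) (hv2 : v * v = 1) :
    ∃ g : G, g * u * g⁻¹ = v := by
  obtain ⟨g, hg⟩ := conj_t hS hu1 hu2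
  obtain ⟨g', hg'⟩ := conj_t hS hv1 hv2
  refine ⟨g'⁻¹ * g, ?_⟩
  calc g'⁻¹ * g * u * (g'⁻¹ * g)⁻¹ = g'⁻¹ * (g * u * g⁻¹) * g' := by group
    _ = v := by rw [hg, ← hg']; group

end CfsgLib.RankOne
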