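import Mathlib
import Cfsg.Agent.Lib.RankOne.Invol

/-!
# The rank-one set-up: inverted elements and fixed points of subsets of the two-point stabiliser
-/

set_option linter.unusedSectionVars false
set_option linter.style.longLine false
set_option linter.unusedVariables false
set_option autoImplicit false

namespace CfsgLib.RankOne

open Cfsg MulAction
open scoped Pointwise

section Inverted

variable {M : Type*} [Group M]

/-- Square roots are unique in an odd-order subgroup. -/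
lemma sq_inj_of_odd [Finite M] {X : Subgroup M} (hodd : Odd (Nat.card X)) {z z' : M} (hz : z ∈ X) (hz' : z' ∈ X)
    (h : z * z = z' * z') : z = z' := by
  obtain ⟨m, hm⟩ := hodd
  have key : ∀ w ∈ X, w = (w * w) ^ (m + 1) := by
    intro w hw
    have h1 : (⟨w, hw⟩ : X) ^ Nat.card X = 1 := pow_card_eq_one'
    have h2 : w ^ Nat.card X = 1 := by
      have h3 : ((⟨w, hw⟩ : X) ^ Nat.card X : X).1 = (1 : X).1 := congrArg Subtype.val h1
      rw [SubmonoidClass.coe_pow] at h3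
      exact h3
    rw [hm] at h2
    rw [← pow_two, ← pow_mul, show 2 * (m + 1) = (2 * m + 1) + 1 by ring, pow_succ, h2, one_mul]
  rw [key z hz, key z' hz', h]

/-- Odd order of elements of an odd subgroup. -/
lemma odd_orderOf_of_mem [Finite M] {X : Subgroup M} (hodd : Odd (Nat.card X)) {z : M} (hz : z ∈ X) : Odd (orderOf z) := by
  have h1 : orderOf (⟨z, hz⟩ : X) ∣ Nat.card X := orderOf_dvd_natCard _
  rw [Subgroup.orderOf_mk] at h1
  exact Odd.of_dvd_nat hodd h1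

/-- Halves of inverted elements. -/
lemma exists_half_inverted [Finite M] {X : Subgroup M} (hodd : Odd (Nat.card X)) {t k : M} (ht : t * t = 1) (hk : k ∈ invertedBy X t) :
    ∃ k₀ ∈ invertedBy X t, k₀ * k₀ = k ∧ k₀⁻¹ * t * k₀ = t * k ∧ ∀ y : M, y * k = k * y → y * k₀ = k₀ * y := by
  obtain ⟨hkX, hk'⟩ := hk
  obtain ⟨n, hn⟩ := exists_half_of_odd (odd_orderOf_of_mem hodd hkX)
  have hti : t⁻¹ = t := inv_eq_of_mul_eq_one_left ht
  have h1 : t * k ^ n * t⁻¹ = (k ^ n)⁻¹ := by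
    rw [← conj_pow, hk', inv_pow]
  refine ⟨k ^ n, ⟨pow_mem hkX n, h1⟩, hn, ?_, ?_⟩
  · rw [hti] at h1
    have h2 : t * k ^ n = (k ^ n)⁻¹ * t := by
      calc t * k ^ n = t * k ^ n * t * t := by rw [mul_assoc (t * k ^ n), ht, mul_one]
        _ = (k ^ n)⁻¹ * t := by rw [h1]
    have h3 : (k ^ n)⁻¹ * t = t * k ^ n := h2.symm
    rw [h3, mul_assoc, hn]
  · intro y hy
    exact (show Commute y (k ^ n) from (show Commute y k from hy).pow_right n)

/-- Decomposition of an odd-order group normalised by an involution. -/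
theorem inverted_decomp [Finite M] (t : M) (ht : t * t = 1) (X : Subgroup M) (hodd : Odd (Nat.card X))
    (hnorm : ∀ x ∈ X, t * x * t⁻¹ ∈ X) :
    ∀ x ∈ X, ∃! p : M × M, p.1 ∈ X ⊓ Subgroup.centralizer {t} ∧ p.2 ∈ invertedBy X t ∧ x = p.1 * p.2 := by
  intro x hx
  have hti : t⁻¹ = t := inv_eq_of_mul_eq_one_left ht
  -- the element `w = τ(x)⁻¹ x`
  set w := (t * x * t⁻¹)⁻¹ * x with hw
  have hwX : w ∈ X := mul_mem (inv_mem (hnorm x hx)) hx
  have hw' : w ∈ invertedBy X t := by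
    refine ⟨hwX, ?_⟩
    rw [hw, hti]
    calc t * ((t * x * t)⁻¹ * x) * t = x⁻¹ * t⁻¹ * x * t := by group
      _ = x⁻¹ * t * x * t := by rw [hti]
      _ = ((t * x * t)⁻¹ * x)⁻¹ := by group
  obtain ⟨z, hz, hzz, hz2, -⟩ := exists_half_inverted hodd ht hw'
  have hzX : z ∈ X := hz.1
  refine ⟨(x * z⁻¹, z), ⟨Subgroup.mem_inf.2 ⟨mul_mem hx (inv_mem hzX), ?_⟩, hz, by simp⟩, ?_⟩
  · rw [Subgroup.mem_centralizer_iff]
    intro y hy
    rw [Set.mem_singleton_iff] at hy
    subst hy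
    have hz3 : y * z * y⁻¹ = z⁻¹ := hz.2
    rw [hti] at hz3
    have e1 : y * (x * z⁻¹) * y = (y * x * y) * (y * z⁻¹ * y) := by
      rw [show y * x * y * (y * z⁻¹ * y) = y * x * (y * y) * z⁻¹ * y by group, ht, mul_one]; group
    have e2 : y * z⁻¹ * y = z := by
      have : y * z⁻¹ * y = (y * z * y)⁻¹ := by
        rw [mul_inv_rev, mul_inv_rev, hti]; group
      rw [this, hz3, inv_inv]
    have e3 : (y * x * y) * z = x * z⁻¹ := by
      have e4 : w = (y * x * y)⁻¹ * x := by rw [hw, hti]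
      have e5 : z * z = (y * x * y)⁻¹ * x := by rw [hzz, e4]
      calc (y * x * y) * z = (y * x * y) * (z * z) * z⁻¹ := by group
        _ = x * z⁻¹ := by rw [e5]; group
    calc y * (x * z⁻¹) = (y * (x * z⁻¹) * y) * y := by rw [mul_assoc _ y y, ht, mul_one]
      _ = (x * z⁻¹) * y := by rw [e1, e2, e3]
  · rintro ⟨y', z'⟩ ⟨h1, h2, h3⟩
    simp only at h1 h2 h3
    have hy'c : t * y' = y' * t := by
      have := (Subgroup.mem_centralizer_iff.1 h1.2) t (Set.mem_singleton t)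
      exact this
    have h4 : z' * z' = w := by
      have hz'3 : t * z' * t⁻¹ = z'⁻¹ := h2.2
      have e1 : t * x * t⁻¹ = y' * z'⁻¹ := by
        rw [h3, show t * (y' * z') * t⁻¹ = (t * y') * (z' * t⁻¹) by group, hy'c]
        rw [show y' * t * (z' * t⁻¹) = y' * (t * z' * t⁻¹) by group, hz'3]
      rw [hw, e1, h3]
      group
    have h5 : z' = z := by
      apply sq_inj_of_odd hodd h2.1 hzX
      rw [h4, hzz]
    subst h5
    ext
    · simp only
      rw [h3]
      group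
    · rfl

lemma card_inverted_decomp [Finite M] (t : M) (ht : t * t = 1) (X : Subgroup M) (hodd : Odd (Nat.card X))
    (hnorm : ∀ x ∈ X, t * x * t⁻¹ ∈ X) :
    Nat.card X = Nat.card ↥(X ⊓ Subgroup.centralizer {t}) * Nat.card (invertedBy X t) := by
  classical
  rw [← Nat.card_prod]
  symm
  apply Nat.card_congr
  have hdec := inverted_decomp t ht X hodd hnorm
  refine Equiv.ofBijective (fun p => ⟨(p.1 : M) * (p.2 : M), mul_mem p.1.2.1 p.2.2.1⟩) ⟨?_, ?_⟩
  · rintro ⟨⟨y, hy⟩, ⟨z, hz⟩⟩ ⟨⟨y', hy'⟩, ⟨z', hz'⟩⟩ h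
    simp only [Subtype.mk.injEq] at h
    obtain ⟨p, -, hp⟩ := hdec (y * z) (mul_mem hy.1 hz.1)
    have h1 := hp (y, z) ⟨hy, hz, rfl⟩
    have h2 := hp (y', z') ⟨hy', hz', h.symm ▸ rfl⟩
    have h3 := h1.trans h2.symm
    simp only [Prod.mk.injEq] at h3
    obtain ⟨rfl, rfl⟩ := h3
    rfl
  · rintro ⟨x, hx⟩
    obtain ⟨p, ⟨h1, h2, h3⟩, -⟩ := hdec x hx
    exact ⟨(⟨p.1, h1⟩, ⟨p.2, h2⟩), Subtype.ext h3.symm⟩

lemma conj_closure_inverted [Finite M] (t : M) (ht : t * t = 1) (X : Subgroup M) (hodd : Odd (Nat.card X))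
    (hnorm : ∀ x ∈ X, t * x * t⁻¹ ∈ X) (x : M) (hx : x ∈ X) :
    MulAut.conj x • Subgroup.closure (invertedBy X t) = Subgroup.closure (invertedBy X t) := by
  have hdec := inverted_decomp t ht X hodd hnorm
  set L := Subgroup.closure (invertedBy X t) with hL
  have key : ∀ x ∈ X, ∀ l ∈ L, x * l * x⁻¹ ∈ L := by
    intro x hx l hl
    obtain ⟨⟨y, z⟩, ⟨h1, h2, h3⟩, -⟩ := hdec x hx
    simp only at h1 h2 h3
    have hzL : z ∈ L := Subgroup.subset_closure h2
    have hyc : t * y = y * t := (Subgroup.mem_centralizer_iff.1 h1.2) t (Set.mem_singleton t)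
    have h4 : ∀ l ∈ L, y * l * y⁻¹ ∈ L := by
      intro l hl
      induction hl using Subgroup.closure_induction with
      | mem u hu =>
        apply Subgroup.subset_closure
        refine ⟨mul_mem (mul_mem h1.1 hu.1) (inv_mem h1.1), ?_⟩
        have hu' : t * u * t⁻¹ = u⁻¹ := hu.2
        calc t * (y * u * y⁻¹) * t⁻¹ = (t * y) * u * y⁻¹ * t⁻¹ := by group
          _ = y * (t * u * t⁻¹) * (t * y⁻¹ * t⁻¹) := by rw [hyc]; group
          _ = y * u⁻¹ * y⁻¹ := by
            have : t * y⁻¹ * t⁻¹ = y⁻¹ := by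
              have h5 : t * y * t⁻¹ = y := by rw [hyc]; group
              calc t * y⁻¹ * t⁻¹ = (t * y * t⁻¹)⁻¹ := by group
                _ = y⁻¹ := by rw [h5]
            rw [hu', this]
          _ = (y * u * y⁻¹)⁻¹ := by group
      | one => simp
      | mul a b _ _ ha hb =>
        have : y * (a * b) * y⁻¹ = (y * a * y⁻¹) * (y * b * y⁻¹) := by group
        rw [this]
        exact mul_mem ha hb
      | inv a _ ha =>
        have : y * a⁻¹ * y⁻¹ = (y * a * y⁻¹)⁻¹ := by group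
        rw [this]
        exact inv_mem ha
    rw [h3]
    have : y * z * l * (y * z)⁻¹ = y * (z * l * z⁻¹) * y⁻¹ := by group
    rw [this]
    exact h4 _ (mul_mem (mul_mem hzL hl) (inv_mem hzL))
  apply le_antisymm
  · intro g hg
    obtain ⟨l, hl, rfl⟩ := (Subgroup.mem_smul_pointwise_iff_exists _ _ _).1 hg
    exact key x hx l hl
  · intro l hl
    refine (Subgroup.mem_smul_pointwise_iff_exists _ _ _).2 ⟨x⁻¹ * l * x⁻¹⁻¹, key _ (inv_mem hx) l hl, ?_⟩
    simp [MulAut.conj_apply]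
    group

end Inverted

variable {G Ω : Type*} [Group G] [MulAction G Ω] {a : Ω} {t : G} {Q : Subgroup G}

/-- `t` normalises the two-point stabiliser. -/
lemma t_conj_mem (hS : IsRankOneSetup G Ω a t Q) {d : G} (hd : d ∈ stabilizer G a ⊓ stabilizer G (t • a)) :
    t * d * t⁻¹ ∈ stabilizer G a ⊓ stabilizer G (t • a) := by
  have hti := t_inv hS
  constructor
  · show (t * d * t⁻¹) • a = a
    simp only [mul_smul]
    rw [hti, show d • t • a = t • a from hd.2, t_t hS]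
  · show (t * d * t⁻¹) • t • a = t • a
    simp only [mul_smul]
    rw [hti, t_t hS, show d • a = a from hd.1]

/-- An involution swapping `a` and `t • a` is `t k` with `k` inverted by `t`. -/
lemma swap_mem (hS : IsRankOneSetup G Ω a t Q) {u : G} (h1 : u • a = t • a) (h2 : u * u = 1) :
    t * u ∈ invertedBy (stabilizer G a ⊓ stabilizer G (t • a)) t := by
  have hti := t_inv hS
  have h3 : u • t • a = a := by
    rw [← h1, smul_smul, h2, one_smul]
  have hui : u⁻¹ = u := inv_eq_of_mul_eq_one_left h2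
  refine ⟨⟨?_, ?_⟩, ?_⟩
  · show (t * u) • a = a
    rw [mul_smul, h1, t_t hS]
  · show (t * u) • t • a = t • a
    rw [mul_smul, h3]
  · rw [hti, mul_inv_rev, hti, hui]
    calc t * (t * u) * t = (t * t) * u * t := by group
      _ = u * t := by rw [hS.mul_self, one_mul]

/-- `t k` is an involution swapping `a` and `t • a`. -/
lemma swap_of_mem (hS : IsRankOneSetup G Ω a t Q) {k : G} (hk : k ∈ invertedBy (stabilizer G a ⊓ stabilizer G (t • a)) t) :
    (t * k) * (t * k) = 1 ∧ (t * k) • a = t • a ∧ (t * k) • t • a = a := by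
  have hti := t_inv hS
  have hk' : t * k * t = k⁻¹ := by
    have := hk.2
    rwa [hti] at this
  refine ⟨?_, ?_, ?_⟩
  · calc (t * k) * (t * k) = (t * k * t) * k := by group
      _ = 1 := by rw [hk']; group
  · rw [mul_smul, show k • a = a from hk.1.1]
  · rw [mul_smul, show k • t • a = t • a from hk.1.2, t_t hS]

/-- The set of points fixed by a subset. -/
def FixS (Ω : Type*) [MulAction G Ω] (X : Set G) : Set Ω := {b | ∀ x ∈ X, x • b = b}

lemma smul_mem_fix {X : Set G} {g : G} (hg : g ∈ Subgroup.centralizer X) {b : Ω} (hb : b ∈ FixS Ω X) : g • b ∈ FixS Ω X := by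
  intro x hx
  have h1 := (Subgroup.mem_centralizer_iff.1 hg) x hx
  rw [smul_smul, h1, mul_smul, hb x hx]

/-- The element of `Q` moving `b` to `c` commutes with `X` when `X` fixes `a`, `b`, `c`. -/
lemma cent_of_fix (hS : IsRankOneSetup G Ω a t Q) {X : Set G} (ha : a ∈ FixS Ω X) {b c : Ω} (hb : b ∈ FixS Ω X) (hc : c ∈ FixS Ω X)
    (hba : b ≠ a) {q : G} (hq : q ∈ Q) (h : q • b = c) : q ∈ Subgroup.centralizer X := by
  rw [Subgroup.mem_centralizer_iff]
  intro x hx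
  have hxa : x ∈ stabilizer G a := ha x hx
  have h1 : (x * q * x⁻¹) • b = q • b := by
    simp only [mul_smul]
    have : x⁻¹ • b = b := by
      rw [inv_smul_eq_iff]
      exact (hb x hx).symm
    rw [this, h, hc x hx]
  have h2 := Q_unique hS (hS.conj_mem x hxa q hq) hq hba h1
  calc x * q = (x * q * x⁻¹) * x := by group
    _ = q * x := by rw [h2]

/-- A set-up exists at every point. -/
lemma exists_setup_at [Finite G] (hS : IsRankOneSetup G Ω a t Q) (p : Ω) :
    ∃ (t' : G) (Q' : Subgroup G), IsRankOneSetup G Ω p t' Q' := by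
  obtain ⟨g, hg⟩ := exists_smul_eq hS a p
  refine ⟨g * t * g⁻¹, _, hg ▸ conj_setup hS g⟩

/-- Centraliser moves points of `Fix X ∖ {p}` while fixing `p`. -/
lemma move_off [Finite G] (hS : IsRankOneSetup G Ω a t Q) {X : Set G} {p b c : Ω} (hp : p ∈ FixS Ω X) (hb : b ∈ FixS Ω X) (hc : c ∈ FixS Ω X)
    (hbp : b ≠ p) (hcp : c ≠ p) : ∃ g ∈ Subgroup.centralizer X, g • p = p ∧ g • b = c := by
  obtain ⟨t', Q', hS'⟩ := exists_setup_at hS p
  obtain ⟨⟨q, hq⟩, hq1, -⟩ := Q_regular hS' hbp hcp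
  exact ⟨q, cent_of_fix hS' hp hb hc hbp hq hq1, hS'.le hq, hq1⟩

/-- With three fixed points, the centraliser is transitive on `Fix X`. -/
lemma move_one [Finite G] (hS : IsRankOneSetup G Ω a t Q) {X : Set G} {b c : Ω} (hb : b ∈ FixS Ω X) (hc : c ∈ FixS Ω X)
    (h3 : ∀ u v : Ω, ∃ w ∈ FixS Ω X, w ≠ u ∧ w ≠ v) : ∃ g ∈ Subgroup.centralizer X, g • b = c := by
  by_cases hbc : b = c
  · exact ⟨1, one_mem _, by simp [hbc]⟩
  · obtain ⟨w, hw, h1, h2⟩ := h3 b c
    obtain ⟨g, hg, -, hg2⟩ := move_off hS hw hb hc h1.symm h2.symm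
    exact ⟨g, hg, hg2⟩

lemma three_of_exists {X : Set G} {b c d : Ω} (hb : b ∈ FixS Ω X) (hc : c ∈ FixS Ω X) (hd : d ∈ FixS Ω X)
    (h1 : b ≠ c) (h2 : b ≠ d) (h3 : c ≠ d) : ∀ u v : Ω, ∃ w ∈ FixS Ω X, w ≠ u ∧ w ≠ v := by
  intro u v
  by_cases hbu : b = u
  · by_cases hcv : c = v
    · exact ⟨d, hd, fun h => h2 (hbu.trans h.symm), fun h => h3 (hcv.trans h.symm)⟩
    · exact ⟨c, hc, fun h => h1 (hbu.trans h.symm), hcv⟩
  · by_cases hbv : b = v
    · by_cases hcu : c = u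
      · exact ⟨d, hd, fun h => h3 (hcu.trans h.symm), fun h => h2 (hbv.trans h.symm)⟩
      · exact ⟨c, hc, hcu, fun h => h1 (hbv.trans h.symm)⟩
    · exact ⟨b, hb, hbu, hbv⟩

/-- The centraliser is doubly transitive on `Fix X`. -/
lemma move_two [Finite G] (hS : IsRankOneSetup G Ω a t Q) {X : Set G} (h3 : ∀ u v : Ω, ∃ w ∈ FixS Ω X, w ≠ u ∧ w ≠ v)
    {b₁ b₂ c₁ c₂ : Ω} (hb₁ : b₁ ∈ FixS Ω X) (hb₂ : b₂ ∈ FixS Ω X) (hc₁ : c₁ ∈ FixS Ω X) (hc₂ : c₂ ∈ FixS Ω X)
    (hb : b₁ ≠ b₂) (hc : c₁ ≠ c₂) : ∃ g ∈ Subgroup.centralizer X, g • b₁ = c₁ ∧ g • b₂ = c₂ := by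
  obtain ⟨g, hg, hg1⟩ := move_one hS hb₁ hc₁ h3
  have h4 : g • b₂ ∈ FixS Ω X := smul_mem_fix hg hb₂
  have h5 : g • b₂ ≠ c₁ := by
    rw [← hg1]
    exact fun h => hb (smul_left_cancel g h).symm
  obtain ⟨g', hg', h6, h7⟩ := move_off hS hc₁ h4 hc₂ h5 hc.symm
  refine ⟨g' * g, mul_mem hg' hg, ?_, ?_⟩
  · rw [mul_smul, hg1, h6]
  · rw [mul_smul, h7]

/-- `|Fix X| = |C_Q(X)| + 1`. -/
lemma card_fix [Finite G] (hS : IsRankOneSetup G Ω a t Q) {X : Set G} (ha : a ∈ FixS Ω X) (hta : t • a ∈ FixS Ω X) :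
    Nat.card (FixS Ω X) = Nat.card ↥(Subgroup.centralizer X ⊓ Q) + 1 := by
  classical
  rw [← Finite.card_option]
  apply Nat.card_congr
  refine Equiv.symm (Equiv.ofBijective (fun o : Option ↥(Subgroup.centralizer X ⊓ Q) => match o with
    | none => (⟨a, ha⟩ : FixS Ω X)
    | some x => ⟨(x : G) • (t • a), smul_mem_fix x.2.1 hta⟩) ⟨?_, ?_⟩)
  · rintro (_ | x) (_ | y) h
    · rfl
    · exfalso
      have h1 : a = (y : G) • (t • a) := congrArg Subtype.val h
      have : (y : G)⁻¹ • a = t • a := by rw [inv_smul_eq_iff]; exact h1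
      rw [show (y : G)⁻¹ • a = a from hS.le (inv_mem y.2.2)] at this
      exact ta_ne hS this.symm
    · exfalso
      have h1 : (x : G) • (t • a) = a := congrArg Subtype.val h
      have : (x : G)⁻¹ • a = t • a := by rw [inv_smul_eq_iff]; exact h1.symm
      rw [show (x : G)⁻¹ • a = a from hS.le (inv_mem x.2.2)] at this
      exact ta_ne hS this.symm
    · have h1 : (x : G) • (t • a) = (y : G) • (t • a) := congrArg Subtype.val h
      congr 1
      apply Subtype.ext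
      exact Q_unique hS x.2.2 y.2.2 (ta_ne hS) h1
  · rintro ⟨b, hb⟩
    by_cases hba : b = a
    · subst hba
      exact ⟨none, rfl⟩
    · obtain ⟨q, hq, rfl⟩ := exists_Q_smul hS hba
      exact ⟨some ⟨q, cent_of_fix hS ha hta hb (ta_ne hS) hq rfl, hq⟩, rfl⟩

/-- `|C_Q(X)|` is even when `X` fixes at least three points and `a, t • a`. -/
lemma even_card_cent [Finite G] (hS : IsRankOneSetup G Ω a t Q) {X : Set G} (ha : a ∈ FixS Ω X) (hta : t • a ∈ FixS Ω X)
    (h3 : ∀ u v : Ω, ∃ w ∈ FixS Ω X, w ≠ u ∧ w ≠ v) :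
    Even (Nat.card ↥(Subgroup.centralizer X ⊓ Q)) := by
  have h2 : Fact (Nat.Prime 2) := ⟨Nat.prime_two⟩
  by_contra hodd
  have hcard := card_fix hS ha hta
  have hF : Even (Nat.card (FixS Ω X)) := by
    rw [hcard]
    exact (Nat.not_even_iff_odd.1 hodd).add_one
  -- `|Fix X|` divides `|C(X)|`
  have hdvd : Nat.card (FixS Ω X) ∣ Nat.card (Subgroup.centralizer X) := by
    have h1 : orbit (Subgroup.centralizer X) a = FixS Ω X := by
      ext b
      constructor
      · rintro ⟨⟨g, hg⟩, rfl⟩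
        exact smul_mem_fix hg ha
      · intro hb
        obtain ⟨g, hg, hg1⟩ := move_one hS ha hb h3
        exact ⟨⟨g, hg⟩, hg1⟩
    have h2 := (stabilizer (Subgroup.centralizer X) a).index_dvd_card
    rw [MulAction.index_stabilizer, h1] at h2
    exact h2
  obtain ⟨v, hv⟩ := exists_prime_orderOf_dvd_card' (G := Subgroup.centralizer X) 2 (dvd_trans hF.two_dvd hdvd)
  have hv1 : (v : G) ≠ 1 := by
    intro h
    have : v = 1 := Subtype.ext h
    rw [this, orderOf_one] at hv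
    omega
  have hv2 : (v : G) * v = 1 := by
    have := pow_orderOf_eq_one v
    rw [hv, pow_two] at this
    have := congrArg Subtype.val this
    simpa using this
  obtain ⟨c, hc⟩ := exists_fix hS hv2
  have hcF : c ∈ FixS Ω X := by
    intro x hx
    have h4 : x * (v : G) = v * x := (Subgroup.mem_centralizer_iff.1 v.2) x hx
    exact fix_of_comm hS hv1 hv2 hc h4
  obtain ⟨g, hg, hg1⟩ := move_one hS hcF ha h3
  have hw : g * v * g⁻¹ ∈ Subgroup.centralizer X ⊓ Q := by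
    have hs : g * v * g⁻¹ ∈ stabilizer G a := by
      show (g * v * g⁻¹) • a = a
      rw [← hg1, mul_smul, mul_smul, inv_smul_smul, hc]
    refine Subgroup.mem_inf.2 ⟨mul_mem (mul_mem hg v.2) (inv_mem hg), inv_mem_Q hS hs ?_⟩
    rw [show g * v * g⁻¹ * (g * v * g⁻¹) = g * (v * v) * g⁻¹ by group, hv2]
    simp
  have hw1 : (⟨_, hw⟩ : ↥(Subgroup.centralizer X ⊓ Q)) ≠ 1 := by
    intro h
    have h5 : g * v * g⁻¹ = 1 := congrArg Subtype.val h
    apply hv1
    have : (v : G) = g⁻¹ * (g * v * g⁻¹) * g := by group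
    rw [this, h5]
    simp
  have hw2 : orderOf (⟨_, hw⟩ : ↥(Subgroup.centralizer X ⊓ Q)) = 2 := by
    apply orderOf_eq_prime _ hw1
    apply Subtype.ext
    rw [pow_two]
    show (g * v * g⁻¹) * (g * v * g⁻¹) = 1
    rw [show g * v * g⁻¹ * (g * v * g⁻¹) = g * (v * v) * g⁻¹ by group, hv2]
    simp
  apply hodd
  have := orderOf_dvd_natCard (⟨_, hw⟩ : ↥(Subgroup.centralizer X ⊓ Q))
  rw [hw2] at this
  exact even_iff_two_dvd.2 this

/-- `C_{G_a}(X) = C_Q(X) C_D(X)`. -/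
lemma cent_stab_eq (hS : IsRankOneSetup G Ω a t Q) {X : Set G} (ha : a ∈ FixS Ω X) (hta : t • a ∈ FixS Ω X) :
    (Subgroup.centralizer X ⊓ Q) ⊔ (Subgroup.centralizer X ⊓ (stabilizer G a ⊓ stabilizer G (t • a))) = Subgroup.centralizer X ⊓ stabilizer G a := by
  apply le_antisymm
  · apply sup_le
    · exact fun g hg => ⟨hg.1, hS.le hg.2⟩
    · exact fun g hg => ⟨hg.1, hg.2.1⟩
  · rintro g ⟨hg1, hg2⟩
    by_cases h : g • t • a = t • a
    · exact Subgroup.mem_sup_right ⟨hg1, hg2, h⟩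
    · have hb : g • t • a ≠ a := by
        intro h1
        have h2 : g • a = a := hg2
        exact ta_ne hS (smul_left_cancel g (h1.trans h2.symm))
      obtain ⟨q, hq, hq1⟩ := exists_Q_smul hS hb
      have hqc : q ∈ Subgroup.centralizer X := cent_of_fix hS ha hta (smul_mem_fix hg1 hta) (ta_ne hS) hq hq1
      have h3 : q⁻¹ * g ∈ Subgroup.centralizer X ⊓ (stabilizer G a ⊓ stabilizer G (t • a)) := by
        refine Subgroup.mem_inf.2 ⟨mul_mem (inv_mem hqc) hg1, Subgroup.mem_inf.2 ⟨mul_mem (inv_mem (hS.le hq)) hg2, ?_⟩⟩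
        show (q⁻¹ * g) • t • a = t • a
        rw [mul_smul, ← hq1, inv_smul_smul]
      have : g = q * (q⁻¹ * g) := by group
      rw [this]
      exact mul_mem (Subgroup.mem_sup_left ⟨hqc, hq⟩) (Subgroup.mem_sup_right h3)

/-- An involution of the centraliser swaps `a` and `t • a`. -/
lemma exists_swap_cent [Finite G] (hS : IsRankOneSetup G Ω a t Q) {X : Set G} (ha : a ∈ FixS Ω X) (hta : t • a ∈ FixS Ω X)
    (h3 : ∀ u v : Ω, ∃ w ∈ FixS Ω X, w ≠ u ∧ w ≠ v) :
    ∃ u ∈ Subgroup.centralizer X, u * u = 1 ∧ u • a = t • a := by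
  have h2 : Fact (Nat.Prime 2) := ⟨Nat.prime_two⟩
  have he := even_card_cent hS ha hta h3
  obtain ⟨v, hv⟩ := exists_prime_orderOf_dvd_card' (G := ↥(Subgroup.centralizer X ⊓ Q)) 2 he.two_dvd
  have hv1 : (v : G) ≠ 1 := by
    intro h
    have : v = 1 := Subtype.ext h
    rw [this, orderOf_one] at hv
    omega
  have hv2 : (v : G) * v = 1 := by
    have := pow_orderOf_eq_one v
    rw [hv, pow_two] at this
    have := congrArg Subtype.val this
    simpa using this
  set b := (v : G) • t • a with hb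
  have hbF : b ∈ FixS Ω X := smul_mem_fix v.2.1 hta
  have hb1 : t • a ≠ b := by
    intro h
    exact hv1 (eq_one_of_fix hS v.2.2 (ta_ne hS) h.symm)
  obtain ⟨g, hg, hg1, hg2⟩ := move_two hS h3 hta hbF ha hta hb1 (ta_ne hS).symm
  refine ⟨g * v * g⁻¹, mul_mem (mul_mem hg v.2.1) (inv_mem hg), ?_, ?_⟩
  · rw [show g * v * g⁻¹ * (g * v * g⁻¹) = g * (v * v) * g⁻¹ by group, hv2]
    simp
  · have h5 : g⁻¹ • a = t • a := by rw [inv_smul_eq_iff]; exact hg1.symm
    rw [mul_smul, mul_smul, h5, ← hb, hg2]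

/-- A subset of `D` fixing three points is conjugate into `C_D(t)`. -/
theorem conj_into_cent [Finite G] (hS : IsRankOneSetup G Ω a t Q) {X : Set G} (ha : a ∈ FixS Ω X) (hta : t • a ∈ FixS Ω X)
    (h3 : ∀ u v : Ω, ∃ w ∈ FixS Ω X, w ≠ u ∧ w ≠ v) :
    ∃ k ∈ (stabilizer G a ⊓ stabilizer G (t • a)), ∀ x ∈ X, (k * x * k⁻¹) * t = t * (k * x * k⁻¹) := by
  obtain ⟨u, hu, hu2, hu3⟩ := exists_swap_cent hS ha hta h3
  have hk := swap_mem hS hu3 hu2
  obtain ⟨k₀, hk₀, hk₁, hk₂, -⟩ := exists_half_inverted hS.odd_card hS.mul_self hk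
  refine ⟨k₀, hk₀.1, ?_⟩
  intro x hx
  have h1 : k₀⁻¹ * t * k₀ = u := by
    rw [hk₂, ← mul_assoc, hS.mul_self, one_mul]
  have hc : x * u = u * x := (Subgroup.mem_centralizer_iff.1 hu) x hx
  have h2 : t = k₀ * u * k₀⁻¹ := by
    rw [← h1]
    group
  rw [h2]
  calc k₀ * x * k₀⁻¹ * (k₀ * u * k₀⁻¹) = k₀ * (x * u) * k₀⁻¹ := by group
    _ = k₀ * (u * x) * k₀⁻¹ := by rw [hc]
    _ = k₀ * u * k₀⁻¹ * (k₀ * x * k₀⁻¹) := by group

end CfsgLib.RankOne
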