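import Mathlib
import Cfsg.Agent.Lib.RankOne.Fix

/-!
# The rank-one set-up: counting involutions, the pair `(s, r)`, canonical forms
-/

set_option linter.unusedSectionVars false
set_option linter.style.longLine false
set_option linter.unusedVariables false
set_option autoImplicit false

namespace CfsgLib.RankOne

open Cfsg MulAction
open scoped Pointwise

variable {G Ω : Type*} [Group G] [MulAction G Ω] {a : Ω} {t : G} {Q : Subgroup G}

/-- `t (t y) = y`. -/
lemma t_t_mul (hS : IsRankOneSetup G Ω a t Q) (y : G) : t * (t * y) = y := by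
  rw [← mul_assoc, hS.mul_self, one_mul]

lemma conj_invol {u : G} (g : G) (h : u * u = 1) : (g * u * g⁻¹) * (g * u * g⁻¹) = 1 := by
  rw [show g * u * g⁻¹ * (g * u * g⁻¹) = g * (u * u) * g⁻¹ by group, h]
  simp

lemma conj_ne_one {u : G} (g : G) (h : u ≠ 1) : g * u * g⁻¹ ≠ 1 := by
  intro h1
  apply h
  have : u = g⁻¹ * (g * u * g⁻¹) * g := by group
  rw [this, h1]
  simp

/-- An involution of `G_a` does not fix `t • a`. -/
lemma invol_not_fix [Finite G] (hS : IsRankOneSetup G Ω a t Q) {s : G} (hs : s ∈ involutionsIn (stabilizer G a : Set G)) : s • t • a ≠ t • a := by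
  intro h
  exact hs.2.1 (eq_one_of_fix_ta hS (inv_mem_Q hS hs.1 hs.2.2) h)

lemma conj_t_not_stab [Finite G] (hS : IsRankOneSetup G Ω a t Q) {s : G} (hs : s ∈ involutionsIn (stabilizer G a : Set G)) : t * s * t ∉ stabilizer G a := by
  intro h
  apply invol_not_fix hS hs
  have h1 : (t * s * t) • a = a := h
  simp only [mul_smul] at h1
  have := congrArg (fun b => t • b) h1
  simp only [t_t hS] at this
  exact this

/-- The `K`-conjugates of an involution of `G_a` are all the involutions of `G_a`. -/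
theorem K_conj_trans [Finite G] (hS : IsRankOneSetup G Ω a t Q) {s s' : G} (hs : s ∈ involutionsIn (stabilizer G a : Set G))
    (hs' : s' ∈ involutionsIn (stabilizer G a : Set G)) :
    ∃ k ∈ invertedBy (stabilizer G a ⊓ stabilizer G (t • a)) t, k⁻¹ * s * k = s' := by
  have hti := t_inv hS
  set w := t * s * t with hw
  have hw2 : w * w = 1 := by
    have := conj_invol t hs.2.2
    rwa [hti] at this
  have hw1 : w ≠ 1 := by
    have := conj_ne_one t hs.2.1
    rwa [hti] at this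
  have hwa := conj_t_not_stab hS hs
  have hodd := odd_orderOf_mul hS hs'.1 hs'.2.1 hs'.2.2 hwa hw1 hw2
  obtain ⟨r, hr, hr'⟩ := exists_reflection hs'.2.2 hw2 hodd
  have hwt : w • t • a = t • a := by
    rw [hw]
    simp only [mul_smul]
    rw [t_t hS, show s • a = a from hs.1]
  have hra : r • a = t • a := by
    apply fix_unique hS hw1 hw2 _ hwt
    rw [← hr', smul_smul, show r * s' * r * r = r * s' * (r * r) by group, hr, mul_one, mul_smul, show s' • a = a from hs'.1]
  have hk := swap_mem hS hra hr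
  refine ⟨t * r, hk, ?_⟩
  rw [mul_inv_rev, inv_eq_of_mul_eq_one_left hr, hti]
  have e1 : r * w * r = s' := by
    rw [← hr']
    calc r * (r * s' * r) * r = (r * r) * s' * (r * r) := by group
      _ = s' := by rw [hr]; group
  have e2 : r * t * s * (t * r) = r * w * r := by
    rw [hw]
    group
  rw [e2, e1]

/-- The set of involutions outside `G_a`. -/
def outerInv (G : Type*) [Group G] {Ω : Type*} [MulAction G Ω] (a : Ω) : Set G := {u | u ≠ 1 ∧ u * u = 1 ∧ u ∉ stabilizer G a}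

lemma conj_swap_smul (hS : IsRankOneSetup G Ω a t Q) {x k : G} (hx : x ∈ Q) (hk : k ∈ invertedBy (stabilizer G a ⊓ stabilizer G (t • a)) t) :
    (x * (t * k) * x⁻¹) • a = x • t • a := by
  have h5 : x⁻¹ • a = a := by
    rw [inv_smul_eq_iff]
    exact (show x • a = a from hS.le hx).symm
  rw [mul_smul (x * (t * k)), h5, mul_smul x, (swap_of_mem hS hk).2.1]

/-- `|Q| |K| = |I ∖ G_a|`. -/
lemma card_outer_K [Finite G] (hS : IsRankOneSetup G Ω a t Q) :
    Nat.card Q * Nat.card (invertedBy (stabilizer G a ⊓ stabilizer G (t • a)) t) = Nat.card (outerInv G a) := by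
  classical
  rw [← Nat.card_prod]
  apply Nat.card_congr
  have hmem : ∀ p : Q × (invertedBy (stabilizer G a ⊓ stabilizer G (t • a)) t),
      (p.1 : G) * (t * (p.2 : G)) * (p.1 : G)⁻¹ ∈ outerInv G a := by
    rintro ⟨⟨x, hx⟩, ⟨k, hk⟩⟩
    obtain ⟨h1, h2, h3⟩ := swap_of_mem hS hk
    refine ⟨conj_ne_one x ?_, conj_invol x h1, ?_⟩
    · intro h
      rw [h, one_smul] at h2
      exact ta_ne hS h2.symm
    · intro h
      have h4 : (x * (t * k) * x⁻¹) • a = a := h
      rw [conj_swap_smul hS hx hk] at h4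
      have h6 : x • t • a = x • a := by rw [h4, show x • a = a from hS.le hx]
      exact ta_ne hS (smul_left_cancel x h6)
  refine Equiv.ofBijective (fun p => ⟨_, hmem p⟩) ⟨?_, ?_⟩
  · rintro ⟨⟨x, hx⟩, ⟨k, hk⟩⟩ ⟨⟨x', hx'⟩, ⟨k', hk'⟩⟩ h
    have h0 : x * (t * k) * x⁻¹ = x' * (t * k') * x'⁻¹ := congrArg Subtype.val h
    have h1 := conj_swap_smul hS hx hk
    have h1' := conj_swap_smul hS hx' hk'
    have h2 : x = x' := Q_unique hS hx hx' (ta_ne hS) (by rw [← h1, ← h1', h0])
    subst h2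
    have h3 : k = k' := by
      exact mul_left_cancel (mul_left_cancel (mul_right_cancel h0))
    subst h3
    rfl
  · rintro ⟨u, hu1, hu2, hu3⟩
    have hb : u • a ≠ a := hu3
    obtain ⟨q, hq, hq1⟩ := exists_Q_smul hS hb
    have h1 : (q⁻¹ * u * q⁻¹⁻¹) • a = t • a := by
      simp only [mul_smul, inv_inv]
      rw [show q • a = a from hS.le hq, ← hq1, inv_smul_smul]
    have h2 := swap_mem hS h1 (conj_invol q⁻¹ hu2)
    refine ⟨(⟨q, hq⟩, ⟨_, h2⟩), ?_⟩
    apply Subtype.ext
    show q * (t * (t * (q⁻¹ * u * q⁻¹⁻¹))) * q⁻¹ = u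
    rw [t_t_mul hS]
    group

/-- `|Q| |I_a| = |I ∖ G_a|`. -/
lemma card_outer_I [Finite G] (hS : IsRankOneSetup G Ω a t Q) :
    Nat.card Q * Nat.card (involutionsIn (stabilizer G a : Set G)) = Nat.card (outerInv G a) := by
  classical
  rw [← Nat.card_prod]
  apply Nat.card_congr
  have hfix : ∀ (x s : G), s ∈ involutionsIn (stabilizer G a : Set G) → ((x * t) * s * (x * t)⁻¹) • (x • t • a) = x • t • a := by
    intro x s hs
    have h5 : (x * t)⁻¹ • x • t • a = a := by
      rw [inv_smul_eq_iff, mul_smul]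
    simp only [mul_smul] at h5 ⊢
    rw [h5, show s • a = a from hs.1]
  have hmem : ∀ p : Q × (involutionsIn (stabilizer G a : Set G)),
      ((p.1 : G) * t) * (p.2 : G) * ((p.1 : G) * t)⁻¹ ∈ outerInv G a := by
    rintro ⟨⟨x, hx⟩, ⟨s, hs⟩⟩
    refine ⟨conj_ne_one _ hs.2.1, conj_invol _ hs.2.2, ?_⟩
    intro h
    have h1 := hfix x s hs
    have h2 := fix_unique hS (conj_ne_one (x * t) hs.2.1) (conj_invol (x * t) hs.2.2) h h1
    have h3 : x⁻¹ • a = a := by
      rw [inv_smul_eq_iff]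
      exact (show x • a = a from hS.le hx).symm
    have h4 : t • a = a := by
      have h5 : x⁻¹ • a = x⁻¹ • x • t • a := by rw [← h2]
      rw [inv_smul_smul, h3] at h5
      exact h5.symm
    exact ta_ne hS h4
  refine Equiv.ofBijective (fun p => ⟨_, hmem p⟩) ⟨?_, ?_⟩
  · rintro ⟨⟨x, hx⟩, ⟨s, hs⟩⟩ ⟨⟨x', hx'⟩, ⟨s', hs'⟩⟩ h
    have h0 : (x * t) * s * (x * t)⁻¹ = (x' * t) * s' * (x' * t)⁻¹ := congrArg Subtype.val h
    have h1 := hfix x s hs
    have h1' := hfix x' s' hs'
    rw [← h0] at h1'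
    have h2 := fix_unique hS (conj_ne_one (x * t) hs.2.1) (conj_invol (x * t) hs.2.2) h1 h1'
    have h3 : x = x' := Q_unique hS hx hx' (ta_ne hS) h2
    subst h3
    have h4 : s = s' := by
      have := mul_right_cancel (mul_left_cancel (a := x * t) (b := s * (x * t)⁻¹) (c := s' * (x * t)⁻¹) (by simpa [mul_assoc] using h0))
      exact this
    subst h4
    rfl
  · rintro ⟨u, hu1, hu2, hu3⟩
    obtain ⟨c, hc⟩ := exists_fix hS hu2
    have hca : c ≠ a := by
      intro h
      rw [h] at hc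
      exact hu3 hc
    obtain ⟨q, hq, hq1⟩ := exists_Q_smul hS hca
    have hs : (q * t)⁻¹ * u * (q * t) ∈ involutionsIn (stabilizer G a : Set G) := by
      have e := conj_ne_one (q * t)⁻¹ hu1
      have e2 := conj_invol (q * t)⁻¹ hu2
      rw [inv_inv] at e e2
      refine ⟨?_, e, e2⟩
      have e3 : (q * t) • a = c := by rw [mul_smul, hq1]
      show ((q * t)⁻¹ * u * (q * t)) • a = a
      rw [mul_smul, mul_smul, e3, hc, ← e3, inv_smul_smul]
    refine ⟨(⟨q, hq⟩, ⟨_, hs⟩), ?_⟩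
    apply Subtype.ext
    show q * t * ((q * t)⁻¹ * u * (q * t)) * (q * t)⁻¹ = u
    group

theorem card_K_eq [Finite G] (hS : IsRankOneSetup G Ω a t Q) :
    Nat.card (invertedBy (stabilizer G a ⊓ stabilizer G (t • a)) t) = Nat.card (involutionsIn (stabilizer G a : Set G)) := by
  have h1 := card_outer_K hS
  have h2 := card_outer_I hS
  have h3 : 0 < Nat.card Q := Nat.card_pos
  exact Nat.eq_of_mul_eq_mul_left h3 (h1.trans h2.symm)

/-- The conjugation map from `K` to the involutions of `G_a` is injective. -/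
lemma K_conj_inj [Finite G] (hS : IsRankOneSetup G Ω a t Q) {s k k' : G} (hs : s ∈ involutionsIn (stabilizer G a : Set G))
    (hk : k ∈ invertedBy (stabilizer G a ⊓ stabilizer G (t • a)) t) (hk' : k' ∈ invertedBy (stabilizer G a ⊓ stabilizer G (t • a)) t)
    (h : k⁻¹ * s * k = k'⁻¹ * s * k') : k = k' := by
  classical
  have hfin : Finite (invertedBy (stabilizer G a ⊓ stabilizer G (t • a)) t) := inferInstance
  have hfin2 : Finite (involutionsIn (stabilizer G a : Set G)) := inferInstance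
  have hconj : ∀ l : (invertedBy (stabilizer G a ⊓ stabilizer G (t • a)) t), (l : G)⁻¹ * s * l ∈ involutionsIn (stabilizer G a : Set G) := by
    rintro ⟨l, hl⟩
    have e1 := conj_ne_one l⁻¹ hs.2.1
    have e2 := conj_invol l⁻¹ hs.2.2
    rw [inv_inv] at e1 e2
    refine ⟨?_, e1, e2⟩
    exact mul_mem (mul_mem (inv_mem hl.1.1) hs.1) hl.1.1
  let f : (invertedBy (stabilizer G a ⊓ stabilizer G (t • a)) t) → (involutionsIn (stabilizer G a : Set G)) := fun l => ⟨_, hconj l⟩
  have hf : Function.Surjective f := by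
    rintro ⟨s', hs'⟩
    obtain ⟨l, hl, hl'⟩ := K_conj_trans hS hs hs'
    exact ⟨⟨l, hl⟩, Subtype.ext hl'⟩
  have hc := card_K_eq hS
  have hinj : Function.Injective f := by
    exact (hf.bijective_of_nat_card_le hc.le).1
  have := hinj (a₁ := ⟨k, hk⟩) (a₂ := ⟨k', hk'⟩) (Subtype.ext h)
  exact congrArg Subtype.val this

/-- The unique pair `(s, r)`. -/
theorem exists_unique_pair [Finite G] (hS : IsRankOneSetup G Ω a t Q) :
    ∃! p : G × G, p.1 ∈ involutionsIn (stabilizer G a : Set G) ∧ p.2 ∈ Q ∧ t * p.1 * t = p.2⁻¹ * t * p.2 := by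
  have hti := t_inv hS
  obtain ⟨c, hc⟩ := exists_fix hS hS.mul_self
  have hca : c ≠ a := by
    intro h
    rw [h] at hc
    exact hS.not_mem hc
  obtain ⟨r, hr, hr1⟩ := exists_Q_smul hS hca
  have hrc : r⁻¹ • c = t • a := by
    rw [inv_smul_eq_iff]
    exact hr1.symm
  refine ⟨(t * (r⁻¹ * t * r) * t, r), ⟨⟨?_, ?_, ?_⟩, hr, ?_⟩, ?_⟩
  · show (t * (r⁻¹ * t * r) * t) • a = a
    simp only [mul_smul]
    rw [hr1, hc, hrc, t_t hS]
  · simp only
    have := conj_ne_one t (show r⁻¹ * t * r⁻¹⁻¹ ≠ 1 from conj_ne_one r⁻¹ hS.ne_one)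
    rwa [hti, inv_inv] at this
  · simp only
    have := conj_invol t (show (r⁻¹ * t * r⁻¹⁻¹) * (r⁻¹ * t * r⁻¹⁻¹) = 1 from conj_invol r⁻¹ hS.mul_self)
    rwa [hti, inv_inv] at this
  · simp only
    rw [show t * (t * (r⁻¹ * t * r) * t) * t = (t * t) * (r⁻¹ * t * r) * (t * t) by group, hS.mul_self]
    group
  · rintro ⟨s', r'⟩ ⟨h1, h2, h3⟩
    simp only at h1 h2 h3
    have h4 : (r'⁻¹ * t * r') • t • a = t • a := by
      rw [← h3]
      simp only [mul_smul]
      rw [t_t hS, show s' • a = a from h1.1]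
    have h5 : t • r' • t • a = r' • t • a := by
      simp only [mul_smul] at h4
      rw [inv_smul_eq_iff] at h4
      exact h4
    have h6 : r' • t • a = c := fix_unique hS hS.ne_one hS.mul_self h5 hc
    have h7 : r' = r := Q_unique hS h2 hr (ta_ne hS) (h6.trans hr1.symm)
    subst h7
    have h8 : s' = t * (r'⁻¹ * t * r') * t := by
      rw [← h3, show t * (t * s' * t) * t = (t * t) * s' * (t * t) by group, hS.mul_self]
      group
    rw [h8]

/-- `C_D(t) ≤ C_D(s)`. -/
lemma cent_t_le [Finite G] (hS : IsRankOneSetup G Ω a t Q) {s r : G} (hs : s ∈ involutionsIn (stabilizer G a : Set G)) (hr : r ∈ Q)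
    (h : t * s * t = r⁻¹ * t * r) {d : G} (hd : d ∈ stabilizer G a ⊓ stabilizer G (t • a)) (hdt : d * t = t * d) : d * s = s * d := by
  have hti := t_inv hS
  obtain ⟨p, -, hp⟩ := exists_unique_pair hS
  have h1 := hp (s, r) ⟨hs, hr, h⟩
  have hs1 : d * s * d⁻¹ ∈ involutionsIn (stabilizer G a : Set G) :=
    ⟨mul_mem (mul_mem hd.1 hs.1) (inv_mem hd.1), conj_ne_one d hs.2.1, conj_invol d hs.2.2⟩
  have hr1 : d * r * d⁻¹ ∈ Q := hS.conj_mem d hd.1 r hr
  have hdt' : t * d = d * t := hdt.symm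
  have hdi : t * d⁻¹ = d⁻¹ * t := (show Commute t d from hdt').inv_right
  have h2 := hp (d * s * d⁻¹, d * r * d⁻¹) ⟨hs1, hr1, by
    simp only
    calc t * (d * s * d⁻¹) * t = (t * d) * s * (d⁻¹ * t) := by group
      _ = (d * t) * s * (t * d⁻¹) := by rw [hdt', hdi]
      _ = d * (t * s * t) * d⁻¹ := by group
      _ = (d * r * d⁻¹)⁻¹ * t * (d * r * d⁻¹) := by
          rw [h]
          calc d * (r⁻¹ * t * r) * d⁻¹ = d * r⁻¹ * (t * d⁻¹) * d * r * d⁻¹ := by group
            _ = d * r⁻¹ * (d⁻¹ * t) * d * r * d⁻¹ := by rw [hdi]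
            _ = (d * r * d⁻¹)⁻¹ * t * (d * r * d⁻¹) := by group⟩
  have h3 := h2.trans h1.symm
  simp only [Prod.mk.injEq] at h3
  calc d * s = (d * s * d⁻¹) * d := by group
    _ = s * d := by rw [h3.1]

/-- `C_D(t) = C_D(s)`. -/
theorem cent_t_eq [Finite G] (hS : IsRankOneSetup G Ω a t Q) {s r : G} (hs : s ∈ involutionsIn (stabilizer G a : Set G)) (hr : r ∈ Q)
    (h : t * s * t = r⁻¹ * t * r) :
    (stabilizer G a ⊓ stabilizer G (t • a)) ⊓ Subgroup.centralizer {t} = (stabilizer G a ⊓ stabilizer G (t • a)) ⊓ Subgroup.centralizer {s} := by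
  have hti := t_inv hS
  set D := stabilizer G a ⊓ stabilizer G (t • a) with hD
  have hle : D ⊓ Subgroup.centralizer {t} ≤ D ⊓ Subgroup.centralizer {s} := by
    rintro d ⟨hd, hdt⟩
    refine Subgroup.mem_inf.2 ⟨hd, ?_⟩
    rw [Subgroup.mem_centralizer_iff]
    intro y hy
    rw [Set.mem_singleton_iff] at hy
    subst hy
    have h1 : y * d = d * y := by
      have := (Subgroup.mem_centralizer_iff.1 hdt) t (Set.mem_singleton t)
      exact (cent_t_le hS hs hr h hd this.symm).symm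
    exact h1
  -- injection the other way
  have hmem : ∀ d : ↥(D ⊓ Subgroup.centralizer {s}), r * (t * (d : G) * t) * r⁻¹ ∈ D ⊓ Subgroup.centralizer {t} := by
    rintro ⟨d, hd, hds⟩
    have hds' : s * d = d * s := (Subgroup.mem_centralizer_iff.1 hds) s (Set.mem_singleton s)
    have hd1 : t * d * t ∈ D := by
      have := t_conj_mem hS hd
      rwa [hti] at this
    have hcomm : (r * (t * d * t) * r⁻¹) * t = t * (r * (t * d * t) * r⁻¹) := by
      have e1 : t * s * t = r⁻¹ * t * r := h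
      have e2 : t = r * (t * s * t) * r⁻¹ := by rw [e1]; group
      have e3 : (t * d * t) * (t * s * t) = (t * s * t) * (t * d * t) := by
        calc (t * d * t) * (t * s * t) = t * d * (t * t) * s * t := by group
          _ = t * (d * s) * t := by rw [hS.mul_self]; group
          _ = t * (s * d) * t := by rw [hds']
          _ = t * s * (t * t) * d * t := by rw [hS.mul_self]; group
          _ = (t * s * t) * (t * d * t) := by group
      calc (r * (t * d * t) * r⁻¹) * t = r * ((t * d * t) * (r⁻¹ * t * r)) * r⁻¹ := by group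
        _ = r * ((t * d * t) * (t * s * t)) * r⁻¹ := by rw [e1]
        _ = r * ((t * s * t) * (t * d * t)) * r⁻¹ := by rw [e3]
        _ = (r * (t * s * t) * r⁻¹) * (r * (t * d * t) * r⁻¹) := by group
        _ = t * (r * (t * d * t) * r⁻¹) := by rw [← e2]
    have hma : (r * (t * d * t) * r⁻¹) ∈ stabilizer G a :=
      mul_mem (mul_mem (hS.le hr) hd1.1) (inv_mem (hS.le hr))
    refine Subgroup.mem_inf.2 ⟨Subgroup.mem_inf.2 ⟨hma, ?_⟩, ?_⟩
    · show (r * (t * d * t) * r⁻¹) • t • a = t • a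
      rw [smul_smul, hcomm, mul_smul, show (r * (t * d * t) * r⁻¹) • a = a from hma]
    · rw [Subgroup.mem_centralizer_iff]
      intro y hy
      rw [Set.mem_singleton_iff] at hy
      subst hy
      exact hcomm.symm
  have hcard : Nat.card ↥(D ⊓ Subgroup.centralizer {s}) ≤ Nat.card ↥(D ⊓ Subgroup.centralizer {t}) := by
    apply Nat.card_le_card_of_injective (fun d => (⟨_, hmem d⟩ : ↥(D ⊓ Subgroup.centralizer {t})))
    rintro ⟨d, hd⟩ ⟨d', hd'⟩ h
    have h1 : r * (t * d * t) * r⁻¹ = r * (t * d' * t) * r⁻¹ := congrArg Subtype.val h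
    have h2 : t * d * t = t * d' * t := mul_left_cancel (mul_right_cancel h1)
    have h3 : d = d' := mul_left_cancel (mul_right_cancel h2)
    subst h3
    rfl
  exact Subgroup.eq_of_le_of_card_ge hle hcard

/-- The second half of the description of `C_D(I_a)`. -/
theorem cent_K_eq [Finite G] (hS : IsRankOneSetup G Ω a t Q) :
    (stabilizer G a ⊓ stabilizer G (t • a)) ⊓ Subgroup.centralizer {t} ⊓ Subgroup.centralizer (invertedBy (stabilizer G a ⊓ stabilizer G (t • a)) t) =
      (stabilizer G a ⊓ stabilizer G (t • a)) ⊓ Subgroup.centralizer (involutionsIn (stabilizer G a : Set G)) := by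
  have hti := t_inv hS
  set D := stabilizer G a ⊓ stabilizer G (t • a) with hD
  obtain ⟨⟨s₀, r₀⟩, ⟨hs₀, hr₀, he⟩, -⟩ := exists_unique_pair hS
  simp only at hs₀ hr₀ he
  have hcs := cent_t_eq hS hs₀ hr₀ he
  apply le_antisymm
  · rintro d ⟨⟨hd, hdt⟩, hdK⟩
    refine Subgroup.mem_inf.2 ⟨hd, ?_⟩
    have hd2 : d ∈ D ⊓ Subgroup.centralizer {s₀} := by
      rw [← hcs]
      exact Subgroup.mem_inf.2 ⟨hd, hdt⟩
    have hds : s₀ * d = d * s₀ := (Subgroup.mem_centralizer_iff.1 hd2.2) s₀ (Set.mem_singleton s₀)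
    rw [Subgroup.mem_centralizer_iff]
    intro s hs
    obtain ⟨k, hk, rfl⟩ := K_conj_trans hS hs₀ hs
    have hdk : k * d = d * k := (Subgroup.mem_centralizer_iff.1 hdK) k hk
    have hdki : k⁻¹ * d = d * k⁻¹ := (show Commute k d from hdk).inv_left
    calc k⁻¹ * s₀ * k * d = k⁻¹ * s₀ * (k * d) := by group
      _ = k⁻¹ * (s₀ * d) * k := by rw [hdk]; group
      _ = (k⁻¹ * d) * s₀ * k := by rw [hds]; group
      _ = d * (k⁻¹ * s₀ * k) := by rw [hdki]; group
  · rintro d ⟨hd, hdI⟩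
    have hds : s₀ * d = d * s₀ := (Subgroup.mem_centralizer_iff.1 hdI) s₀ hs₀
    have hd2 : d ∈ D ⊓ Subgroup.centralizer {s₀} := by
      refine Subgroup.mem_inf.2 ⟨hd, ?_⟩
      rw [Subgroup.mem_centralizer_iff]
      intro y hy
      rw [Set.mem_singleton_iff] at hy
      subst hy
      exact hds
    have hd3 : d ∈ D ⊓ Subgroup.centralizer {t} := by
      rw [hcs]
      exact hd2
    have hdt : t * d = d * t := (Subgroup.mem_centralizer_iff.1 hd3.2) t (Set.mem_singleton t)
    refine Subgroup.mem_inf.2 ⟨hd3, ?_⟩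
    rw [Subgroup.mem_centralizer_iff]
    intro k hk
    -- `d k d⁻¹` is inverted by `t`
    have hk2 : d * k * d⁻¹ ∈ invertedBy D t := by
      refine ⟨mul_mem (mul_mem hd hk.1) (inv_mem hd), ?_⟩
      have hk' : t * k * t⁻¹ = k⁻¹ := hk.2
      have hdi : t * d⁻¹ = d⁻¹ * t := (show Commute t d from hdt).inv_right
      calc t * (d * k * d⁻¹) * t⁻¹ = (t * d) * k * (t⁻¹ * (t * d⁻¹)) * t⁻¹ := by group
        _ = d * (t * k * t⁻¹) * d⁻¹ * (t * t⁻¹) := by rw [hdt, hdi]; group
        _ = (d * k * d⁻¹)⁻¹ := by rw [hk']; group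
    have hinv : k⁻¹ * s₀ * k ∈ involutionsIn (stabilizer G a : Set G) := by
      have e1 := conj_ne_one k⁻¹ hs₀.2.1
      have e2 := conj_invol k⁻¹ hs₀.2.2
      rw [inv_inv] at e1 e2
      exact ⟨mul_mem (mul_mem (inv_mem hk.1.1) hs₀.1) hk.1.1, e1, e2⟩
    have hc2 : (k⁻¹ * s₀ * k) * d = d * (k⁻¹ * s₀ * k) := (Subgroup.mem_centralizer_iff.1 hdI) _ hinv
    have h3 : (d * k * d⁻¹)⁻¹ * s₀ * (d * k * d⁻¹) = k⁻¹ * s₀ * k := by
      calc (d * k * d⁻¹)⁻¹ * s₀ * (d * k * d⁻¹) = d * k⁻¹ * d⁻¹ * s₀ * d * k * d⁻¹ := by group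
        _ = d * k⁻¹ * (s₀ * (d⁻¹ * d)) * k * d⁻¹ := by
          have hds2 : d⁻¹ * s₀ = s₀ * d⁻¹ := ((show Commute s₀ d from hds).inv_right).symm
          rw [show d * k⁻¹ * d⁻¹ * s₀ * d * k * d⁻¹ = d * k⁻¹ * (d⁻¹ * s₀) * d * k * d⁻¹ by group, hds2]
          group
        _ = d * (k⁻¹ * s₀ * k) * d⁻¹ := by group
        _ = k⁻¹ * s₀ * k := by rw [← hc2]; group
    have h4 := K_conj_inj hS hs₀ hk2 hk h3
    calc k * d = d * k * d⁻¹ * d := by rw [h4]
      _ = d * k := by group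

end CfsgLib.RankOne
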