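import Mathlib

/-!
# Additive and biadditive maps of a finite field of characteristic two as combinations of automorphisms
-/

set_option linter.unusedSectionVars false
set_option linter.style.longLine false
set_option linter.unusedVariables false
set_option autoImplicit false

namespace CfsgLib.RankOne

variable {F : Type*} [Field F] [Fintype F] [CharP F 2]

lemma finite_aut : Finite (F ≃+* F) :=
  Finite.of_injective (fun σ : F ≃+* F => (σ : F → F)) DFunLike.coe_injective

/-- Dedekind independence. -/
theorem aut_linearIndependent : LinearIndependent F (fun σ : F ≃+* F => ((σ : F →+* F) : F → F)) := by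
  have h := linearIndependent_monoidHom F F
  refine h.comp (fun σ : F ≃+* F => ((σ : F →+* F) : F →* F)) ?_
  intro σ τ hh
  ext x
  have := congrArg (fun f : F →* F => f x) hh
  exact this

/-- The additive self-maps as a subspace of all functions. -/
def addSub (F : Type*) [Field F] : Submodule F (F → F) where
  carrier := {f | ∀ x y, f (x + y) = f x + f y}
  add_mem' := by
    intro f g hf hg x y
    simp only [Pi.add_apply, hf x y, hg x y]
    ring
  zero_mem' := by
    intro x y
    simp
  smul_mem' := by
    intro c f hf x y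
    simp only [Pi.smul_apply, hf x y, smul_add]

lemma zmod2_cases (c : ZMod 2) : c = 0 ∨ c = 1 := by
  revert c
  decide

/-- Additive maps are `ZMod 2`-linear. -/
lemma additive_smul (f : F →+ F) (c : ZMod 2) (y : F) :
    letI : Algebra (ZMod 2) F := ZMod.algebra F 2
    f (c • y) = c • f y := by
  letI : Algebra (ZMod 2) F := ZMod.algebra F 2
  rcases zmod2_cases c with rfl | rfl
  · simp
  · simp

theorem span_aut_eq : Submodule.span F (Set.range (fun σ : F ≃+* F => ((σ : F →+* F) : F → F))) = addSub F := by
  classical
  haveI : Finite (F ≃+* F) := finite_aut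
  letI : Fintype (F ≃+* F) := Fintype.ofFinite _
  letI instA : Algebra (ZMod 2) F := ZMod.algebra F 2
  have hle : Submodule.span F (Set.range (fun σ : F ≃+* F => ((σ : F →+* F) : F → F))) ≤ addSub F := by
    rw [Submodule.span_le]
    rintro _ ⟨σ, rfl⟩ x y
    exact map_add σ x y
  apply Submodule.eq_of_le_of_finrank_le hle
  -- dimension of the span
  have h1 := finrank_span_eq_card (aut_linearIndependent (F := F))
  rw [h1]
  -- the number of automorphisms
  let b := Module.finBasis (ZMod 2) F
  set n := Module.finrank (ZMod 2) F with hn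
  have hcard : n ≤ Fintype.card (F ≃+* F) := by
    have h2 := IsGalois.card_aut_eq_finrank (ZMod 2) F
    rw [← hn] at h2
    rw [← h2, ← Nat.card_eq_fintype_card]
    exact Nat.card_le_card_of_injective (fun σ : F ≃ₐ[ZMod 2] F => (σ : F ≃+* F)) (by
      intro σ τ h
      ext x
      have := congrArg (fun f : F ≃+* F => f x) h
      exact this)
  refine le_trans ?_ hcard
  -- the evaluation map
  let Φ : addSub F →ₗ[F] (Fin n → F) :=
    { toFun := fun f i => (f : F → F) (b i)
      map_add' := by
        intro f g
        rfl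
      map_smul' := by
        intro c f
        rfl }
  have hΦ : Function.Injective Φ := by
    intro f g h
    apply Subtype.ext
    funext x
    let f' : F →+ F := AddMonoidHom.mk' (f : F → F) f.2
    let g' : F →+ F := AddMonoidHom.mk' (g : F → F) g.2
    have h3 : ∀ i, f' (b i) = g' (b i) := fun i => congrFun h i
    have h4 := b.sum_repr x
    have h5 : f' x = g' x := by
      rw [← h4, map_sum, map_sum]
      apply Finset.sum_congr rfl
      intro i _
      rw [additive_smul, additive_smul, h3]
    exact h5
  have h6 := LinearMap.finrank_le_finrank_of_injective hΦ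
  simpa using h6

/-- Every additive self-map is a combination of automorphisms. -/
theorem additive_combination (f : F →+ F) :
    letI : Finite (F ≃+* F) := finite_aut
    letI : Fintype (F ≃+* F) := Fintype.ofFinite _
    ∃ c : (F ≃+* F) → F, ∀ x : F, f x = ∑ σ, c σ * σ x := by
  haveI : Finite (F ≃+* F) := finite_aut
  letI : Fintype (F ≃+* F) := Fintype.ofFinite _
  have hf : (f : F → F) ∈ addSub F := fun x y => map_add f x y
  rw [← span_aut_eq] at hf
  obtain ⟨c, hc⟩ := (Submodule.mem_span_range_iff_exists_fun F).1 hf
  refine ⟨c, fun x => ?_⟩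
  have := congrFun hc x
  simpa [Finset.sum_apply] using this.symm

/-- Every biadditive map is a combination of products of automorphisms. -/
theorem biadditive_combination (B : F →+ F →+ F) :
    letI : Finite (F ≃+* F) := finite_aut
    letI : Fintype (F ≃+* F) := Fintype.ofFinite _
    ∃ c : (F ≃+* F) × (F ≃+* F) → F, ∀ x y : F, B x y = ∑ p, c p * (p.1 x * p.2 y) := by
  classical
  haveI : Finite (F ≃+* F) := finite_aut
  letI : Fintype (F ≃+* F) := Fintype.ofFinite _
  have hli := aut_linearIndependent (F := F)
  have hmem : ∀ x, ((B x : F →+ F) : F → F) ∈ Submodule.span F (Set.range (fun σ : F ≃+* F => ((σ : F →+* F) : F → F))) := by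
    intro x
    rw [span_aut_eq]
    exact fun u v => map_add (B x) u v
  let bs := Module.Basis.span hli
  let d : (F ≃+* F) → (F →+ F) := fun τ => AddMonoidHom.mk' (fun x => bs.repr ⟨_, hmem x⟩ τ) (by
    intro x x'
    have e : (⟨((B (x + x') : F →+ F) : F → F), hmem (x + x')⟩ : Submodule.span F (Set.range (fun σ : F ≃+* F => ((σ : F →+* F) : F → F)))) = ⟨_, hmem x⟩ + ⟨_, hmem x'⟩ := by
      apply Subtype.ext
      funext y
      simp only [map_add, AddMonoidHom.add_apply]
      rfl
    rw [e, map_add]
    rfl)
  have hd : ∀ x y, B x y = ∑ τ : F ≃+* F, d τ x * τ y := by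
    intro x y
    have h1 := bs.sum_repr ⟨_, hmem x⟩
    have h2 := congrArg (fun f => (f : Submodule.span F (Set.range (fun σ : F ≃+* F => ((σ : F →+* F) : F → F)))).1 y) h1
    simp only [AddSubmonoidClass.coe_finset_sum, Finset.sum_apply, SetLike.val_smul, Pi.smul_apply, smul_eq_mul] at h2
    rw [← h2]
    apply Finset.sum_congr rfl
    intro τ _
    congr 1
    have h3 : ((bs τ : Submodule.span F (Set.range (fun σ : F ≃+* F => ((σ : F →+* F) : F → F)))) : F → F) = _ := congrArg Subtype.val (Module.Basis.span_apply hli τ)
    rw [h3]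
    rfl
  choose e he using fun τ => additive_combination (d τ)
  refine ⟨fun p => e p.2 p.1, fun x y => ?_⟩
  rw [hd, Fintype.sum_prod_type]
  rw [Finset.sum_comm]
  apply Finset.sum_congr rfl
  intro τ _
  rw [he τ x, Finset.sum_mul]
  apply Finset.sum_congr rfl
  intro σ _
  ring

/-- The span of the products `σ x * τ x`. -/
def prodSpan (F : Type*) [Field F] : Submodule F (F → F) :=
  Submodule.span F (Set.range (fun p : (F ≃+* F) × (F ≃+* F) => fun x : F => p.1 x * p.2 x))

lemma mul_mem_prodSpan (f g : F →+ F) : (fun x => f x * g x) ∈ prodSpan F := by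
  classical
  haveI : Finite (F ≃+* F) := finite_aut
  letI : Fintype (F ≃+* F) := Fintype.ofFinite _
  obtain ⟨c, hc⟩ := additive_combination f
  obtain ⟨d, hd⟩ := additive_combination g
  have e : (fun x => f x * g x) = ∑ σ : F ≃+* F, ∑ τ : F ≃+* F, (c σ * d τ) • (fun x : F => σ x * τ x) := by
    funext x
    simp only [Finset.sum_apply, Pi.smul_apply, smul_eq_mul]
    rw [hc x, hd x, Finset.sum_mul]
    apply Finset.sum_congr rfl
    intro σ _
    rw [Finset.mul_sum]
    apply Finset.sum_congr rfl
    intro τ _
    ring
  rw [e]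
  refine Submodule.sum_mem _ fun σ _ => Submodule.sum_mem _ fun τ _ => Submodule.smul_mem _ _ ?_
  exact Submodule.subset_span ⟨(σ, τ), rfl⟩

/-- A quadratic map over the prime field is a combination of products of automorphisms. -/
theorem quadratic_combination (q : F → F)
    (hq : ∀ x y z : F, q (x + y + z) + q (x + y) + q (x + z) + q (y + z) + q x + q y + q z = 0) :
    q ∈ prodSpan F := by
  classical
  letI instA : Algebra (ZMod 2) F := ZMod.algebra F 2
  have h2 : ∀ x : F, x + x = 0 := fun x => CharTwo.add_self_eq_zero x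
  have hneg : ∀ x y : F, x + y = 0 → x = y := fun x y h => by
    have : x = x + (y + y) := by rw [h2]; ring
    rw [this, ← add_assoc, h]
    ring
  have hq0 : q 0 = 0 := by
    have := hq 0 0 0
    simp only [add_zero] at this
    have e : q 0 + q 0 + q 0 + q 0 + q 0 + q 0 + q 0 = q 0 + (q 0 + q 0) + (q 0 + q 0) + (q 0 + q 0) := by ring
    rw [e, h2] at this
    simpa using this
  -- the polar form
  let β : F → F → F := fun x y => q (x + y) + q x + q y
  have hβ1 : ∀ x x' y, β (x + x') y = β x y + β x' y := by
    intro x x' y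
    have h3 := hq x x' y
    apply hneg
    simp only [β]
    have e1 : q (x + x' + y) + q (x + x') + q y + (q (x + y) + q x + q y + (q (x' + y) + q x' + q y)) =
      (q (x + x' + y) + q (x + x') + q (x + y) + q (x' + y) + q x + q x' + q y) + (q y + q y) := by ring
    rw [e1, h3, h2]
    ring
  have hβ0 : ∀ y, β 0 y = 0 := by
    intro y
    simp only [β, zero_add, hq0]
    rw [add_zero, h2]
  have hβs : ∀ x y, β x y = β y x := by
    intro x y
    simp only [β, add_comm x y]
    ring
  have hsum : ∀ (a : ℕ → F) (k : ℕ), q (∑ i ∈ Finset.range k, a i) = ∑ i ∈ Finset.range k, q (a i) + ∑ j ∈ Finset.range k, β (∑ i ∈ Finset.range j, a i) (a j) := by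
    intro a k
    induction k with
    | zero => simp [hq0]
    | succ k ih =>
      rw [Finset.sum_range_succ, Finset.sum_range_succ, Finset.sum_range_succ]
      have e : β (∑ i ∈ Finset.range k, a i) (a k) = q ((∑ i ∈ Finset.range k, a i) + a k) + q (∑ i ∈ Finset.range k, a i) + q (a k) := rfl
      rw [e, ih]
      generalize q ((∑ i ∈ Finset.range k, a i) + a k) = Z
      generalize ∑ x ∈ Finset.range k, q (a x) = X
      generalize ∑ j ∈ Finset.range k, β (∑ i ∈ Finset.range j, a i) (a j) = Y
      generalize q (a k) = W
      have e3 : X + W + (Y + (Z + (X + Y) + W)) = Z + (X + X) + (Y + Y) + (W + W) := by ring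
      rw [e3, h2, h2, h2]
      simp
  have hβsum : ∀ (a : ℕ → F) (y : F) (k : ℕ), β (∑ i ∈ Finset.range k, a i) y = ∑ i ∈ Finset.range k, β (a i) y := by
    intro a y k
    induction k with
    | zero => simpa using hβ0 y
    | succ k ih => rw [Finset.sum_range_succ, Finset.sum_range_succ, hβ1, ih]
  -- coordinates
  let b := Module.finBasis (ZMod 2) F
  set n := Module.finrank (ZMod 2) F with hn
  let π : ℕ → (F →+ F) := fun i => if h : i < n then AddMonoidHom.mk' (fun x => algebraMap (ZMod 2) F (b.repr x ⟨i, h⟩)) (by
      intro x y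
      simp) else 0
  let b' : ℕ → F := fun i => if h : i < n then b ⟨i, h⟩ else 0
  have hπ : ∀ i x, π i x = 0 ∨ π i x = 1 := by
    intro i x
    by_cases h : i < n
    · simp only [π, dif_pos h, AddMonoidHom.mk'_apply]
      rcases zmod2_cases (b.repr x ⟨i, h⟩) with h1 | h1
      · left
        rw [h1, map_zero]
      · right
        rw [h1, map_one]
    · left
      simp [π, dif_neg h]
  have hx : ∀ x : F, x = ∑ i ∈ Finset.range n, π i x * b' i := by
    intro x
    rw [Finset.sum_range]
    conv_lhs => rw [← b.sum_repr x]
    apply Finset.sum_congr rfl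
    intro i _
    have h := i.2
    simp only [π, b', dif_pos h, AddMonoidHom.mk'_apply, Fin.eta]
    rw [Algebra.smul_def]
  have hqs : ∀ (ε c : F), (ε = 0 ∨ ε = 1) → q (ε * c) = ε * q c := by
    rintro ε c (rfl | rfl)
    · simp [hq0]
    · simp
  have hβx : ∀ y, β y 0 = 0 := fun y => by rw [hβs]; exact hβ0 y
  have hβs2 : ∀ (ε ε' c c' : F), (ε = 0 ∨ ε = 1) → (ε' = 0 ∨ ε' = 1) → β (ε * c) (ε' * c') = ε * ε' * β c c' := by
    rintro ε ε' c c' (rfl | rfl) (rfl | rfl)
    · simp [hβ0]
    · simp [hβ0]
    · simp [hβx]
    · simp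
  have hform : q = fun x => ∑ i ∈ Finset.range n, π i x * q (b' i) + ∑ j ∈ Finset.range n, ∑ i ∈ Finset.range j, π i x * π j x * β (b' i) (b' j) := by
    funext x
    have h1 := hsum (fun i => π i x * b' i) n
    rw [← hx x] at h1
    rw [h1]
    congr 1
    · apply Finset.sum_congr rfl
      intro i _
      exact hqs _ _ (hπ i x)
    · apply Finset.sum_congr rfl
      intro j _
      rw [hβsum]
      apply Finset.sum_congr rfl
      intro i _
      exact hβs2 _ _ _ _ (hπ i x) (hπ j x)
  rw [hform]
  have hself : ∀ i x, π i x = π i x * π i x := by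
    intro i x
    rcases hπ i x with h | h <;> simp [h]
  refine Submodule.add_mem _ ?_ ?_
  · have e : (fun x => ∑ i ∈ Finset.range n, π i x * q (b' i)) = ∑ i ∈ Finset.range n, q (b' i) • (fun x => π i x * π i x) := by
      funext x
      simp only [Finset.sum_apply, Pi.smul_apply, smul_eq_mul]
      apply Finset.sum_congr rfl
      intro i _
      rw [← hself, mul_comm]
    show (fun x => ∑ i ∈ Finset.range n, π i x * q (b' i)) ∈ _
    rw [e]
    exact Submodule.sum_mem _ fun i _ => Submodule.smul_mem _ _ (mul_mem_prodSpan _ _)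
  · have e : (fun x => ∑ j ∈ Finset.range n, ∑ i ∈ Finset.range j, π i x * π j x * β (b' i) (b' j)) = ∑ j ∈ Finset.range n, ∑ i ∈ Finset.range j, β (b' i) (b' j) • (fun x => π i x * π j x) := by
      funext x
      simp only [Finset.sum_apply, Pi.smul_apply, smul_eq_mul]
      apply Finset.sum_congr rfl
      intro j _
      apply Finset.sum_congr rfl
      intro i _
      rw [mul_comm]
    show (fun x => ∑ j ∈ Finset.range n, ∑ i ∈ Finset.range j, π i x * π j x * β (b' i) (b' j)) ∈ _
    rw [e]
    exact Submodule.sum_mem _ fun j _ => Submodule.sum_mem _ fun i _ => Submodule.smul_mem _ _ (mul_mem_prodSpan _ _)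

end CfsgLib.RankOne
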