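import Mathlib
import Cfsg.Agent.Lib.RankOne.Count

/-!
# The rank-one set-up: fixed-point-free elements, conjugation in `C_D(t)`, canonical forms
-/

set_option linter.unusedSectionVars false
set_option linter.style.longLine false
set_option linter.unusedVariables false
set_option autoImplicit false

namespace CfsgLib.RankOne

open Cfsg MulAction
open scoped Pointwise

variable {G Ω : Type*} [Group G] [MulAction G Ω] {a : Ω} {t : G} {Q : Subgroup G}

/-- An element of odd order inverting `k` forces `k² = 1`. -/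
lemma eq_inv_of_odd_conj [Finite G] {c k : G} (h : c * k * c⁻¹ = k⁻¹) (hodd : Odd (orderOf c)) : k = k⁻¹ := by
  have h1 : ∀ n : ℕ, c ^ (2 * n + 1) * k * (c ^ (2 * n + 1))⁻¹ = k⁻¹ := by
    intro n
    induction n with
    | zero => simpa using h
    | succ n ih =>
      have h2 : c * k⁻¹ * c⁻¹ = k := by
        have : c * k⁻¹ * c⁻¹ = (c * k * c⁻¹)⁻¹ := by group
        rw [this, h, inv_inv]
      have e : c ^ (2 * (n + 1) + 1) = c * c * c ^ (2 * n + 1) := by
        rw [show 2 * (n + 1) + 1 = 2 + (2 * n + 1) by ring, pow_add, pow_two]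
      rw [e]
      calc c * c * c ^ (2 * n + 1) * k * (c * c * c ^ (2 * n + 1))⁻¹
          = c * (c * (c ^ (2 * n + 1) * k * (c ^ (2 * n + 1))⁻¹) * c⁻¹) * c⁻¹ := by group
        _ = k⁻¹ := by rw [ih, h2, h]
  obtain ⟨m, hm⟩ := hodd
  have h3 := h1 m
  rw [← hm, pow_orderOf_eq_one] at h3
  simpa using h3

/-- A non-identity inverted element of `D` acts fixed-point-freely on `Q`. -/
theorem inverted_fpf [Finite G] (hS : IsRankOneSetup G Ω a t Q) {k : G}
    (hk : k ∈ invertedBy (stabilizer G a ⊓ stabilizer G (t • a)) t) (hk1 : k ≠ 1) :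
    Q ⊓ Subgroup.centralizer {k} = ⊥ := by
  have hti := t_inv hS
  rw [eq_bot_iff]
  intro x hx
  obtain ⟨hxQ, hxk⟩ := hx
  by_contra hx1
  have hx1' : x ≠ 1 := fun h => hx1 (by simp [h])
  have hxk' : k * x = x * k := (Subgroup.mem_centralizer_iff.1 hxk) k (Set.mem_singleton k)
  have hxc : x ∈ Subgroup.centralizer ({k} : Set G) := hxk
  have ha : a ∈ FixS Ω ({k} : Set G) := by
    intro y hy
    rw [Set.mem_singleton_iff] at hy
    subst hy
    exact hk.1.1
  have hta : t • a ∈ FixS Ω ({k} : Set G) := by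
    intro y hy
    rw [Set.mem_singleton_iff] at hy
    subst hy
    exact hk.1.2
  have hc := smul_mem_fix hxc hta
  have hne1 : a ≠ t • a := (ta_ne hS).symm
  have hne2 : a ≠ x • t • a := by
    intro h
    have : x⁻¹ • a = t • a := by rw [inv_smul_eq_iff]; exact h
    rw [show x⁻¹ • a = a from inv_mem (hS.le hxQ)] at this
    exact hne1 this
  have hne3 : t • a ≠ x • t • a := by
    intro h
    exact hx1' (eq_one_of_fix_ta hS hxQ h.symm)
  obtain ⟨u, hu, hu2, hu3⟩ := exists_swap_cent hS ha hta (three_of_exists ha hta hc hne1 hne2 hne3)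
  have hk' := swap_mem hS hu3 hu2
  have huk : k * u = u * k := (Subgroup.mem_centralizer_iff.1 hu) k (Set.mem_singleton k)
  have hui : u⁻¹ = u := inv_eq_of_mul_eq_one_left hu2
  have hconj : (t * u) * k * (t * u)⁻¹ = k⁻¹ := by
    have h1 : t * k * t⁻¹ = k⁻¹ := hk.2
    calc (t * u) * k * (t * u)⁻¹ = t * (u * k * u⁻¹) * t⁻¹ := by group
      _ = t * k * t⁻¹ := by
        have e : u * k * u⁻¹ = k := by rw [hui, ← huk, mul_assoc, hu2, mul_one]
        rw [e]
      _ = k⁻¹ := h1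
  have hodd := odd_orderOf_of_mem hS.odd_card hk'.1
  have h2 := eq_inv_of_odd_conj hconj hodd
  -- `k = k⁻¹` and odd order force `k = 1`
  have h3 : k * k = 1 := by
    calc k * k = k * k⁻¹ := by rw [← h2]
      _ = 1 := by group
  have hodd2 := odd_orderOf_of_mem hS.odd_card hk.1
  have h4 : orderOf k ∣ 2 := orderOf_dvd_of_pow_eq_one (by rw [pow_two]; exact h3)
  have h5 : orderOf k = 1 := by
    rcases (Nat.dvd_prime Nat.prime_two).1 h4 with h | h
    · exact h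
    · rw [h] at hodd2
      exact absurd hodd2 (by decide)
  exact hk1 (orderOf_eq_one_iff.1 h5)

/-- Subsets of `V = C_D(t)` that are conjugate in `G` are conjugate in `V`. -/
theorem conj_in_V [Finite G] (hS : IsRankOneSetup G Ω a t Q) (X : Set G)
    (hX : X ⊆ (((stabilizer G a ⊓ stabilizer G (t • a)) ⊓ Subgroup.centralizer {t} : Subgroup G) : Set G)) (g : G)
    (hY : (fun x => g * x * g⁻¹) '' X ⊆ (((stabilizer G a ⊓ stabilizer G (t • a)) ⊓ Subgroup.centralizer {t} : Subgroup G) : Set G)) :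
    ∃ v ∈ (stabilizer G a ⊓ stabilizer G (t • a)) ⊓ Subgroup.centralizer {t}, (fun x => v * x * v⁻¹) '' X = (fun x => g * x * g⁻¹) '' X := by
  have hti := t_inv hS
  set Y := (fun x => g * x * g⁻¹) '' X with hYdef
  obtain ⟨p, hp⟩ := exists_fix hS hS.mul_self
  have hpa : p ≠ a := by
    intro h
    rw [h] at hp
    exact hS.not_mem hp
  have hpta : p ≠ t • a := by
    intro h
    rw [h, t_t hS] at hp
    exact ta_ne hS hp.symm
  -- facts about a subset of `V`
  have hfacts : ∀ Z : Set G, Z ⊆ (((stabilizer G a ⊓ stabilizer G (t • a)) ⊓ Subgroup.centralizer {t} : Subgroup G) : Set G) →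
      a ∈ FixS Ω Z ∧ t • a ∈ FixS Ω Z ∧ p ∈ FixS Ω Z := by
    intro Z hZ
    refine ⟨fun z hz => (hZ hz).1.1, fun z hz => (hZ hz).1.2, fun z hz => ?_⟩
    have h1 : z * t = t * z := ((Subgroup.mem_centralizer_iff.1 (hZ hz).2) t (Set.mem_singleton t)).symm
    exact fix_of_comm hS hS.ne_one hS.mul_self hp h1
  obtain ⟨hXa, hXt, hXp⟩ := hfacts X hX
  obtain ⟨hYa, hYt, hYp⟩ := hfacts Y hY
  have hY3 := three_of_exists hYa hYt hYp (ta_ne hS).symm hpa.symm hpta.symm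
  -- points `g a`, `g (t a)` are fixed by `Y`
  have hga : g • a ∈ FixS Ω Y := by
    rintro _ ⟨x, hx, rfl⟩
    simp only [mul_smul, inv_smul_smul]
    rw [hXa x hx]
  have hgt : g • t • a ∈ FixS Ω Y := by
    rintro _ ⟨x, hx, rfl⟩
    simp only [mul_smul, inv_smul_smul]
    rw [hXt x hx]
  have hne : g • a ≠ g • t • a := fun h => ta_ne hS (smul_left_cancel g h).symm
  obtain ⟨c, hc, hc1, hc2⟩ := move_two hS hY3 hga hgt hYa hYt hne (ta_ne hS).symm
  set g₁ := c * g with hg₁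
  have hg₁a : g₁ • a = a := by rw [hg₁, mul_smul, hc1]
  have hg₁t : g₁ • t • a = t • a := by rw [hg₁, mul_smul, hc2]
  have hg₁D : g₁ ∈ stabilizer G a ⊓ stabilizer G (t • a) := Subgroup.mem_inf.2 ⟨hg₁a, hg₁t⟩
  -- `g₁` conjugates like `g`
  have hconj : ∀ x ∈ X, g₁ * x * g₁⁻¹ = g * x * g⁻¹ := by
    intro x hx
    have h1 : (g * x * g⁻¹) * c = c * (g * x * g⁻¹) := (Subgroup.mem_centralizer_iff.1 hc) _ ⟨x, hx, rfl⟩
    calc g₁ * x * g₁⁻¹ = c * (g * x * g⁻¹) * c⁻¹ := by rw [hg₁]; group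
      _ = g * x * g⁻¹ := by rw [← h1]; group
  -- `t' = g₁ t g₁⁻¹`
  set t' := g₁ * t * g₁⁻¹ with ht'
  have ht'2 : t' * t' = 1 := conj_invol g₁ hS.mul_self
  have ht'a : t' • a = t • a := by
    have h5 : g₁⁻¹ • a = a := by rw [inv_smul_eq_iff]; exact hg₁a.symm
    rw [ht', mul_smul, mul_smul, h5, hg₁t]
  have hk := swap_mem hS ht'a ht'2
  -- `t t'` commutes with `Y`
  have hcomm : ∀ y ∈ Y, y * (t * t') = (t * t') * y := by
    rintro _ ⟨x, hx, rfl⟩
    have hxt : x * t = t * x := ((Subgroup.mem_centralizer_iff.1 (hX hx).2) t (Set.mem_singleton t)).symm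
    have hyt : (g * x * g⁻¹) * t = t * (g * x * g⁻¹) :=
      ((Subgroup.mem_centralizer_iff.1 (hY ⟨x, hx, rfl⟩).2) t (Set.mem_singleton t)).symm
    have hyt' : (g * x * g⁻¹) * t' = t' * (g * x * g⁻¹) := by
      rw [← hconj x hx, ht']
      calc g₁ * x * g₁⁻¹ * (g₁ * t * g₁⁻¹) = g₁ * (x * t) * g₁⁻¹ := by group
        _ = g₁ * (t * x) * g₁⁻¹ := by rw [hxt]
        _ = g₁ * t * g₁⁻¹ * (g₁ * x * g₁⁻¹) := by group
    calc (g * x * g⁻¹) * (t * t') = ((g * x * g⁻¹) * t) * t' := by group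
      _ = t * ((g * x * g⁻¹) * t') := by rw [hyt]; group
      _ = t * (t' * (g * x * g⁻¹)) := by rw [hyt']
      _ = (t * t') * (g * x * g⁻¹) := by group
  obtain ⟨k₀, hk₀, hk₁, hk₂, hk₃⟩ := exists_half_inverted hS.odd_card hS.mul_self hk
  have h2 : k₀⁻¹ * t * k₀ = t' := by
    rw [hk₂, t_t_mul hS]
  refine ⟨k₀ * g₁, Subgroup.mem_inf.2 ⟨mul_mem hk₀.1 hg₁D, ?_⟩, ?_⟩
  · rw [Subgroup.mem_centralizer_iff]
    intro y hy
    rw [Set.mem_singleton_iff] at hy
    subst hy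
    have e1 : k₀ * g₁ * y * (k₀ * g₁)⁻¹ = k₀ * t' * k₀⁻¹ := by
      rw [ht']
      group
    have e2 : k₀ * t' * k₀⁻¹ = y := by
      rw [← h2]
      group
    calc y * (k₀ * g₁) = (k₀ * g₁ * y * (k₀ * g₁)⁻¹) * (k₀ * g₁) := by rw [e1, e2]
      _ = k₀ * g₁ * y := by group
  · ext z
    constructor
    · rintro ⟨x, hx, rfl⟩
      refine ⟨x, hx, ?_⟩
      simp only
      have hy : g * x * g⁻¹ ∈ Y := ⟨x, hx, rfl⟩
      have h3 := hk₃ _ (hcomm _ hy)
      calc g * x * g⁻¹ = (g * x * g⁻¹) * k₀ * k₀⁻¹ := by group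
        _ = k₀ * (g * x * g⁻¹) * k₀⁻¹ := by rw [h3]
        _ = k₀ * (g₁ * x * g₁⁻¹) * k₀⁻¹ := by rw [hconj x hx]
        _ = k₀ * g₁ * x * (k₀ * g₁)⁻¹ := by group
    · rintro ⟨x, hx, rfl⟩
      refine ⟨x, hx, ?_⟩
      simp only
      have hy : g * x * g⁻¹ ∈ Y := ⟨x, hx, rfl⟩
      have h3 := hk₃ _ (hcomm _ hy)
      calc k₀ * g₁ * x * (k₀ * g₁)⁻¹ = k₀ * (g₁ * x * g₁⁻¹) * k₀⁻¹ := by group
        _ = k₀ * (g * x * g⁻¹) * k₀⁻¹ := by rw [hconj x hx]
        _ = (g * x * g⁻¹) * k₀ * k₀⁻¹ := by rw [h3]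
        _ = g * x * g⁻¹ := by group

/-- Uniqueness of the canonical form. -/
lemma canon_unique (hS : IsRankOneSetup G Ω a t Q) {x x' y y' : G} (hx : x ∈ stabilizer G a) (hx' : x' ∈ stabilizer G a) (hy : y ∈ Q) (hy' : y' ∈ Q)
    (h : x * t * y = x' * t * y') : x = x' ∧ y = y' := by
  have hti := t_inv hS
  have h1 : (x * t * y)⁻¹ • a = y⁻¹ • t • a := by
    have h5 : x⁻¹ • a = a := by rw [inv_smul_eq_iff]; exact (show x • a = a from hx).symm
    simp only [mul_inv_rev, mul_smul]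
    rw [h5, hti]
  have h1' : (x' * t * y')⁻¹ • a = y'⁻¹ • t • a := by
    have h5 : x'⁻¹ • a = a := by rw [inv_smul_eq_iff]; exact (show x' • a = a from hx').symm
    simp only [mul_inv_rev, mul_smul]
    rw [h5, hti]
  have h2 : y⁻¹ = y'⁻¹ := Q_unique hS (inv_mem hy) (inv_mem hy') (ta_ne hS) (by rw [← h1, ← h1', h])
  have h3 : y = y' := inv_injective h2
  subst h3
  exact ⟨mul_right_cancel (mul_right_cancel h), rfl⟩

/-- Uniqueness of the factorisation `G_a = Q D`. -/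
lemma QD_unique (hS : IsRankOneSetup G Ω a t Q) {g g' h h' : G} (hg : g ∈ Q) (hg' : g' ∈ Q)
    (hh : h ∈ stabilizer G a ⊓ stabilizer G (t • a)) (hh' : h' ∈ stabilizer G a ⊓ stabilizer G (t • a))
    (e : g * h = g' * h') : g = g' ∧ h = h' := by
  have h1 : (g * h) • t • a = g • t • a := by rw [mul_smul, show h • t • a = t • a from hh.2]
  have h2 : (g' * h') • t • a = g' • t • a := by rw [mul_smul, show h' • t • a = t • a from hh'.2]
  have h3 : g = g' := Q_unique hS hg hg' (ta_ne hS) (by rw [← h1, ← h2, e])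
  subst h3
  exact ⟨rfl, mul_left_cancel e⟩

lemma canon_unique₃ (hS : IsRankOneSetup G Ω a t Q) {g g' h h' f f' : G} (hg : g ∈ Q) (hg' : g' ∈ Q)
    (hh : h ∈ stabilizer G a ⊓ stabilizer G (t • a)) (hh' : h' ∈ stabilizer G a ⊓ stabilizer G (t • a)) (hf : f ∈ Q) (hf' : f' ∈ Q)
    (e : g * h * t * f = g' * h' * t * f') : g = g' ∧ h = h' ∧ f = f' := by
  obtain ⟨h1, h2⟩ := canon_unique hS (mul_mem (hS.le hg) hh.1) (mul_mem (hS.le hg') hh'.1) hf hf' e
  obtain ⟨h3, h4⟩ := QD_unique hS hg hg' hh hh' h1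
  exact ⟨h3, h4, h2⟩

end CfsgLib.RankOne
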