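import Mathlib
import Cfsg.Agent.Lib.RankOne.Misc
import Cfsg.Prelude.Def_Solvable

/-!
# A four-group acting on an odd-order group: generation by centralisers
-/

set_option linter.unusedSectionVars false
set_option linter.style.longLine false
set_option linter.unusedVariables false
set_option autoImplicit false

namespace CfsgLib.RankOne

open Cfsg MulAction
open scoped Pointwise

section Four

variable {N : Type*} [Group N] [Finite N]

/-- The fixed-point subgroup of an automorphism. -/
def fixS (e : MulAut N) : Subgroup N where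
  carrier := {x | e x = x}
  mul_mem' := by
    intro a b ha hb
    simp only [Set.mem_setOf_eq] at ha hb ⊢
    rw [map_mul, ha, hb]
  one_mem' := by simp
  inv_mem' := by
    intro a ha
    simp only [Set.mem_setOf_eq] at ha ⊢
    rw [map_inv, ha]

lemma mem_fixS {e : MulAut N} {x : N} : x ∈ fixS e ↔ e x = x := Iff.rfl

/-- The lift of a fixed coset to a fixed element. -/
lemma exists_fixed_in_coset (hodd : Odd (Nat.card N)) (e : MulAut N) (he : e * e = 1) {M : Subgroup N}
    (hM : ∀ m ∈ M, e m ∈ M) {u : N} (hu : u⁻¹ * e u ∈ M) : ∃ m ∈ M, e (u * m) = u * m := by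
  have hMo : Odd (Nat.card M) := Odd.of_dvd_nat hodd (Subgroup.card_subgroup_dvd_card M)
  have hee : ∀ x, e (e x) = x := fun x => by
    have := congrArg (fun f : MulAut N => f x) he
    simpa using this
  set c := u⁻¹ * e u with hc
  have hcc : c * e c = 1 := by
    rw [hc, map_mul, map_inv, hee]
    group
  let f : M → M := fun m => ⟨c * e m, mul_mem hu (hM m m.2)⟩
  have hf : Function.Involutive f := by
    rintro ⟨m, hm⟩
    apply Subtype.ext
    show c * e (c * e m) = m
    rw [map_mul, hee, ← mul_assoc, hcc, one_mul]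
  obtain ⟨⟨m, hm⟩, hm'⟩ := exists_fixed_of_odd f hf hMo
  have hm2 : c * e m = m := congrArg Subtype.val hm'
  refine ⟨m, hm, ?_⟩
  rw [map_mul]
  calc e u * e m = u * (c * e m) := by rw [hc]; group
    _ = u * m := by rw [hm2]

/-- The main step: abelian sections. -/
lemma step_abelian (hodd : Odd (Nat.card N)) (α β : MulAut N) (hα : α * α = 1) (hβ : β * β = 1) (hc : α * β = β * α)
    {L H M : Subgroup N} (hL₁ : fixS α ≤ L) (hL₂ : fixS β ≤ L) (hL₃ : fixS (α * β) ≤ L) (hMH : M ≤ H) (hML : M ≤ L)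
    (hMα : ∀ m ∈ M, α m ∈ M) (hMβ : ∀ m ∈ M, β m ∈ M)
    (hHα : ∀ x ∈ H, α x ∈ H) (hHβ : ∀ x ∈ H, β x ∈ H)
    (hNormal : ∀ h ∈ H, ∀ m ∈ M, h * m * h⁻¹ ∈ M)
    (hcomm : ∀ x ∈ H, ∀ y ∈ H, x * y * x⁻¹ * y⁻¹ ∈ M) : H ≤ L := by
  have hαα : ∀ x, α (α x) = x := fun x => by
    have := congrArg (fun f : MulAut N => f x) hα
    simpa using this
  have hββ : ∀ x, β (β x) = x := fun x => by
    have := congrArg (fun f : MulAut N => f x) hβ
    simpa using this
  have hαβ : ∀ x, α (β x) = β (α x) := fun x => by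
    have := congrArg (fun f : MulAut N => f x) hc
    simpa using this
  have hαβ2 : (α * β) * (α * β) = 1 := by
    calc (α * β) * (α * β) = α * (β * α) * β := by group
      _ = α * (α * β) * β := by rw [hc]
      _ = (α * α) * (β * β) := by group
      _ = 1 := by rw [hα, hβ]; group
  have hMφ : ∀ m ∈ M, (α * β) m ∈ M := fun m hm => hMα _ (hMβ m hm)
  -- the lift
  have hlift : ∀ (e : MulAut N), e * e = 1 → (∀ m ∈ M, e m ∈ M) → fixS e ≤ L → ∀ u : N, u⁻¹ * e u ∈ M → u ∈ L := by
    intro e he hM hfix u hu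
    obtain ⟨m, hm, hm'⟩ := exists_fixed_in_coset hodd e he hM hu
    have h1 : u * m ∈ L := hfix hm'
    have : u = (u * m) * m⁻¹ := by group
    rw [this]
    exact mul_mem h1 (inv_mem (hML hm))
  -- the quotient by `M`, as a commutative group
  let H' : Type _ := ↥H
  let M' : Subgroup ↥H := M.subgroupOf H
  have hM'n : M'.Normal := by
    refine ⟨fun m hm g => ?_⟩
    exact hNormal g.1 g.2 m.1 hm
  let C : Type _ := ↥H ⧸ M'
  have hCcomm : ∀ a b : C, a * b = b * a := by
    intro a b
    induction a using QuotientGroup.induction_on with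
    | H a =>
      induction b using QuotientGroup.induction_on with
      | H b =>
        rw [← QuotientGroup.mk_mul, ← QuotientGroup.mk_mul, QuotientGroup.eq]
        show ((a * b)⁻¹ * (b * a)).1 ∈ M
        have h1 := hcomm b⁻¹.1 (inv_mem b.2) a⁻¹.1 (inv_mem a.2)
        have e : ((a * b)⁻¹ * (b * a)).1 = (b⁻¹.1) * (a⁻¹.1) * (b⁻¹.1)⁻¹ * (a⁻¹.1)⁻¹ := by
          simp only [Subgroup.coe_mul, Subgroup.coe_inv, inv_inv, mul_inv_rev]
          group
        rw [e]
        exact h1
  letI instC : CommGroup C := { (inferInstance : Group C) with mul_comm := hCcomm }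
  have hmem : ∀ a b : ↥H, ((a : C) = (b : C)) → (a.1)⁻¹ * b.1 ∈ M := by
    intro a b h
    have := QuotientGroup.eq.1 h
    exact this
  -- each `x` with `x⁴` handled
  have hfour : ∀ x ∈ H, x * x * x * x ∈ L := by
    intro x hx
    let X : ↥H := ⟨x, hx⟩
    let A : ↥H := ⟨α x, hHα x hx⟩
    let B : ↥H := ⟨β x, hHβ x hx⟩
    let D : ↥H := ⟨β (α x), hHβ _ (hHα x hx)⟩
    -- `p`
    have hp : x * α x ∈ L := by
      apply hlift α hα hMα hL₁
      have h := hcomm (α x)⁻¹ (inv_mem (hHα x hx)) x⁻¹ (inv_mem hx)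
      have e : (x * α x)⁻¹ * α (x * α x) = (α x)⁻¹ * x⁻¹ * ((α x)⁻¹)⁻¹ * (x⁻¹)⁻¹ := by
        rw [map_mul, hαα]
        group
      rw [e]
      exact h
    -- `q`, `r`, `s`
    obtain ⟨q, hq⟩ : ∃ q, q = x * (α x)⁻¹ := ⟨_, rfl⟩
    have hqH : q ∈ H := by
      rw [hq]
      exact mul_mem hx (inv_mem (hHα x hx))
    have hβq : β q = β x * (β (α x))⁻¹ := by
      rw [hq, map_mul, map_inv]
    have hr : q * β q ∈ L := by
      apply hlift β hβ hMβ hL₂
      have h := hcomm (β q)⁻¹ (inv_mem (hHβ q hqH)) q⁻¹ (inv_mem hqH)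
      have e : (q * β q)⁻¹ * β (q * β q) = (β q)⁻¹ * q⁻¹ * ((β q)⁻¹)⁻¹ * (q⁻¹)⁻¹ := by
        rw [map_mul, hββ]
        group
      rw [e]
      exact h
    have hs : q * (β q)⁻¹ ∈ L := by
      apply hlift (α * β) hαβ2 hMφ hL₃
      have e : (q * (β q)⁻¹)⁻¹ * (α * β) (q * (β q)⁻¹) = β x * (β (α x))⁻¹ * α x * x⁻¹ * (β (α x)) * (β x)⁻¹ * x * (α x)⁻¹ := by
        have e1 : (α * β) q = β (α x) * (β x)⁻¹ := by
          show α (β q) = _
          rw [hq, map_mul, map_mul, map_inv, map_inv, hαβ x, hαβ (α x), hαα]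
        have e2 : (α * β) (β q) = α x * x⁻¹ := by
          show α (β (β q)) = _
          rw [hββ, hq, map_mul, map_inv, hαα]
        rw [map_mul, map_inv, e1, e2, hβq, hq]
        group
      rw [e]
      have h1 : (((B * D⁻¹ * A * X⁻¹ * D * B⁻¹ * X * A⁻¹ : ↥H)) : C) = ((1 : ↥H) : C) := by
        simp only [QuotientGroup.mk_mul, QuotientGroup.mk_inv]
        show (B : C) * (D : C)⁻¹ * (A : C) * (X : C)⁻¹ * (D : C) * (B : C)⁻¹ * (X : C) * (A : C)⁻¹ = 1
        simp [mul_comm, mul_left_comm, mul_assoc]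
      have h2 := hmem _ _ h1.symm
      simpa [X, A, B, D] using h2
    -- conclusion
    have h3 : (x * α x) * (x * α x) * ((q * β q) * (q * (β q)⁻¹)) ∈ L :=
      mul_mem (mul_mem hp hp) (mul_mem hr hs)
    have h4 : ((x * α x) * (x * α x) * ((q * β q) * (q * (β q)⁻¹)))⁻¹ * (x * x * x * x) ∈ M := by
      have hβqH : β q ∈ H := hHβ q hqH
      let Q' : ↥H := ⟨q, hqH⟩
      let R' : ↥H := ⟨β q, hβqH⟩
      have h1 : (((X * A) * (X * A) * ((Q' * R') * (Q' * R'⁻¹)) : ↥H) : C) = ((X * X * X * X : ↥H) : C) := by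
        have hQ : Q' = X * A⁻¹ := Subtype.ext (by simp [Q', X, A, hq])
        rw [hQ]
        simp only [QuotientGroup.mk_mul, QuotientGroup.mk_inv]
        show (((X : C) * (A : C)) * ((X : C) * (A : C)) * ((((X : C) * (A : C)⁻¹) * (R' : C)) * (((X : C) * (A : C)⁻¹) * (R' : C)⁻¹))) = (X : C) * (X : C) * (X : C) * (X : C)
        simp [mul_comm, mul_left_comm, mul_assoc]
      have h2 := hmem _ _ h1
      simpa [X, A, Q', R'] using h2
    have h5 := mul_mem h3 (hML h4)
    rwa [mul_inv_cancel_left] at h5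
  -- take fourth roots
  intro x hx
  have hxo : Odd (orderOf x) := Odd.of_dvd_nat hodd (orderOf_dvd_natCard x)
  obtain ⟨n, hn⟩ := exists_half_of_odd hxo
  have hyo : Odd (orderOf (x ^ n)) := Odd.of_dvd_nat hodd (orderOf_dvd_natCard _)
  obtain ⟨n', hn'⟩ := exists_half_of_odd hyo
  have := hfour ((x ^ n) ^ n') (pow_mem (pow_mem hx _) _)
  have e : (x ^ n) ^ n' * (x ^ n) ^ n' * (x ^ n) ^ n' * (x ^ n) ^ n' = x := by
    rw [hn', mul_assoc, hn', hn]
  rwa [e] at this

/-- Invariant solvable subgroups lie in the join of the fixed-point subgroups. -/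
lemma solvable_le (hodd : Odd (Nat.card N)) (α β : MulAut N) (hα : α * α = 1) (hβ : β * β = 1) (hc : α * β = β * α)
    {L : Subgroup N} (hL₁ : fixS α ≤ L) (hL₂ : fixS β ≤ L) (hL₃ : fixS (α * β) ≤ L) :
    ∀ (n : ℕ) (H : Subgroup N), Nat.card H = n → Group.IsSolvable H → (∀ x ∈ H, α x ∈ H) → (∀ x ∈ H, β x ∈ H) → H ≤ L := by
  intro n
  induction n using Nat.strong_induction_on with
  | _ n ih =>
    intro H hn hsol hHα hHβ
    by_cases hbot : H = ⊥
    · rw [hbot]
      exact bot_le
    · have hcm : ⁅H, H⁆ ≤ H := Subgroup.commutator_le_self H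
      have hlt : Nat.card ↥⁅H, H⁆ < n := by
        rw [← hn]
        have hnt : Nontrivial H := Subgroup.nontrivial_iff_ne_bot H |>.2 hbot
        have h1 := Group.IsSolvable.commutator_lt_top_of_nontrivial (G := H)
        by_contra hge
        have h3 := Subgroup.eq_of_le_of_card_ge hcm (Nat.le_of_not_lt hge)
        have h2 := Subgroup.map_subtype_commutator H
        rw [h3] at h2
        have h4 : commutator ↥H = ⊤ := by
          apply Subgroup.map_injective H.subtype_injective
          rw [h2, ← MonoidHom.range_eq_map, Subgroup.range_subtype]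
        exact h1.ne h4
      have hM1 : ∀ m ∈ ⁅H, H⁆, α m ∈ ⁅H, H⁆ := by
        have h : (⁅H, H⁆).map α.toMonoidHom ≤ ⁅H, H⁆ := by
          rw [Subgroup.map_commutator]
          apply Subgroup.commutator_mono <;>
          · rintro _ ⟨x, hx, rfl⟩
            exact hHα x hx
        exact fun m hm => h ⟨m, hm, rfl⟩
      have hM2 : ∀ m ∈ ⁅H, H⁆, β m ∈ ⁅H, H⁆ := by
        have h : (⁅H, H⁆).map β.toMonoidHom ≤ ⁅H, H⁆ := by
          rw [Subgroup.map_commutator]
          apply Subgroup.commutator_mono <;>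
          · rintro _ ⟨x, hx, rfl⟩
            exact hHβ x hx
        exact fun m hm => h ⟨m, hm, rfl⟩
      have hsolM : Group.IsSolvable ↥⁅H, H⁆ := by
        exact Group.isSolvable_of_isSolvable_injective (f := Subgroup.inclusion hcm) (Subgroup.inclusion_injective hcm)
      have hML := ih _ hlt ⁅H, H⁆ rfl hsolM hM1 hM2
      refine step_abelian hodd α β hα hβ hc hL₁ hL₂ hL₃ hcm hML hM1 hM2 hHα hHβ ?_ ?_
      · intro h hh m hm
        have h1 : h * m * h⁻¹ * m⁻¹ ∈ ⁅H, H⁆ := Subgroup.commutator_mem_commutator hh (hcm hm)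
        have : h * m * h⁻¹ = (h * m * h⁻¹ * m⁻¹) * m := by group
        rw [this]
        exact mul_mem h1 hm
      · intro x hx y hy
        exact Subgroup.commutator_mem_commutator hx hy

/-- **Generation by centralisers**: a four-group of automorphisms of an odd-order group. -/
theorem fixed_gen (hodd : Odd (Nat.card N)) (α β : MulAut N) (hα : α * α = 1) (hβ : β * β = 1) (hc : α * β = β * α) :
    fixS α ⊔ fixS β ⊔ fixS (α * β) = ⊤ := by
  classical
  set L := fixS α ⊔ fixS β ⊔ fixS (α * β) with hL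
  have hL₁ : fixS α ≤ L := le_sup_of_le_left le_sup_left
  have hL₂ : fixS β ≤ L := le_sup_of_le_left le_sup_right
  have hL₃ : fixS (α * β) ≤ L := le_sup_right
  by_contra hne
  have hi : L.index ≠ 1 := fun h => hne (Subgroup.index_eq_one.1 h)
  obtain ⟨p, hp, hpd⟩ := Nat.exists_prime_and_dvd hi
  have hfact : Fact p.Prime := ⟨hp⟩
  -- the set of Sylow subgroups has odd size
  have hS : Odd (Nat.card (Sylow p N)) := by
    obtain ⟨P⟩ : Nonempty (Sylow p N) := inferInstance
    have h1 := P.card_dvd_index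
    exact Odd.of_dvd_nat (Odd.of_dvd_nat hodd (Subgroup.index_dvd_card _)) h1
  -- `α` has an odd number of fixed points on the Sylow subgroups
  have hfin : Finite (Sylow p N) := inferInstance
  have := Fintype.ofFinite (Sylow p N)
  let fα : Function.End (Sylow p N) := fun P => α • P
  have hfα : fα ^ 2 ^ 1 = 1 := by
    funext P
    show (fα ^ 2) P = P
    rw [pow_two]
    show α • α • P = P
    rw [smul_smul, hα, one_smul]
  have hmod := Equiv.Perm.card_fixedPoints_modEq (p := 2) (n := 1) (f := fα) (hp := ⟨Nat.prime_two⟩) hfα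
  have hFodd : Odd (Nat.card (Function.fixedPoints fα)) := by
    rw [Nat.card_eq_fintype_card]
    rw [Nat.card_eq_fintype_card] at hS
    rw [Nat.odd_iff] at hS ⊢
    have h1 : Fintype.card (Sylow p N) % 2 = Fintype.card (Function.fixedPoints fα) % 2 := hmod
    omega
  let g : Function.fixedPoints fα → Function.fixedPoints fα := fun P => ⟨β • P.1, by
    have h1 : fα P.1 = P.1 := P.2
    show α • β • P.1 = β • P.1
    rw [smul_smul, hc, mul_smul]
    congr 1⟩
  have hg : Function.Involutive g := by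
    rintro ⟨P, hP⟩
    apply Subtype.ext
    show β • β • P = P
    rw [smul_smul, hβ, one_smul]
  obtain ⟨⟨P, hP⟩, hP'⟩ := exists_fixed_of_odd g hg hFodd
  have hPα : α • P = P := hP
  have hPβ : β • P = P := congrArg Subtype.val hP'
  have hinv : ∀ (e : MulAut N), e • P = P → ∀ x ∈ (P : Subgroup N), e x ∈ (P : Subgroup N) := by
    intro e he x hx
    rw [← he, Sylow.pointwise_smul_def]
    exact Subgroup.smul_mem_pointwise_smul _ _ _ hx
  have hsol : Group.IsSolvable (P : Subgroup N) := by
    have : Group.IsNilpotent (P : Subgroup N) := P.isPGroup'.isNilpotent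
    infer_instance
  have hle := solvable_le hodd α β hα hβ hc hL₁ hL₂ hL₃ _ (P : Subgroup N) rfl hsol (hinv α hPα) (hinv β hPβ)
  have hdvd := Subgroup.index_dvd_of_le hle
  exact P.not_dvd_index (dvd_trans hpd hdvd)

end Four

section Setup

variable {G Ω : Type*} [Group G] [MulAction G Ω] {a : Ω} {t : G} {Q : Subgroup G}

/-- A normal subgroup of odd order lies in the core of a point stabiliser, when `G` has two commuting involutions. -/
lemma odd_normal_le [Finite G] (hS : IsRankOneSetup G Ω a t Q)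
    (h2 : ∃ x y : G, x ≠ 1 ∧ y ≠ 1 ∧ x ≠ y ∧ x * x = 1 ∧ y * y = 1 ∧ x * y = y * x)
    (N : Subgroup G) [hN : N.Normal] (hodd : Odd (Nat.card N)) : N ≤ stabilizer G a := by
  obtain ⟨x, y, hx1, hy1, hxy, hx2, hy2, hc⟩ := h2
  let α : MulAut N := MulAut.conjNormal x
  let β : MulAut N := MulAut.conjNormal y
  have hα : α * α = 1 := by
    rw [← map_mul, ← pow_two, pow_two, hx2, map_one]
  have hβ : β * β = 1 := by
    rw [← map_mul, hy2, map_one]
  have hcc : α * β = β * α := by
    rw [← map_mul, ← map_mul, hc]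
  have hgen := fixed_gen hodd α β hα hβ hcc
  obtain ⟨b, hb⟩ := exists_fix hS hx2
  have hyb : y • b = b := fix_of_comm hS hx1 hx2 hb hc.symm
  have hxyb : (x * y) • b = b := by rw [mul_smul, hyb, hb]
  have hxy1 : x * y ≠ 1 := by
    intro h
    apply hxy
    have : x = y⁻¹ := eq_inv_of_mul_eq_one_left h
    rw [this, inv_eq_of_mul_eq_one_left hy2]
  have hxy2 : (x * y) * (x * y) = 1 := by
    calc (x * y) * (x * y) = x * (y * x) * y := by group
      _ = x * (x * y) * y := by rw [hc]
      _ = (x * x) * (y * y) := by group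
      _ = 1 := by rw [hx2, hy2]; group
  -- every fixed point subgroup fixes `b`
  have hfix : ∀ (u : G), u ≠ 1 → u * u = 1 → u • b = b → ∀ n : N, MulAut.conjNormal u n = n → (n : G) • b = b := by
    intro u hu1 hu2 hub n hn
    have h1 : u * (n : G) * u⁻¹ = n := by
      have := congrArg Subtype.val hn
      simpa [MulAut.conjNormal_apply] using this
    have h3 : (n : G) * u = u * n := by
      calc (n : G) * u = (u * n * u⁻¹) * u := by rw [h1]
        _ = u * n := by group
    exact fix_of_comm hS hu1 hu2 hub h3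
  have hle : ∀ n : N, (n : G) • b = b := by
    intro n
    have hn : n ∈ fixS α ⊔ fixS β ⊔ fixS (α * β) := by rw [hgen]; trivial
    have hsub : fixS α ⊔ fixS β ⊔ fixS (α * β) ≤ (stabilizer G b).subgroupOf N := by
      apply sup_le (sup_le _ _)
      · intro m hm
        exact hfix (x * y) hxy1 hxy2 hxyb m (by
          have : (α * β) m = m := hm
          rw [← map_mul] at this
          exact this)
      · intro m hm
        exact hfix x hx1 hx2 hb m hm
      · intro m hm
        exact hfix y hy1 hy2 hyb m hm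
    exact hsub hn
  obtain ⟨g, hg⟩ := exists_smul_eq hS b a
  intro n hn
  have h1 : g⁻¹ * n * g ∈ N := by
    have := hN.conj_mem n hn g⁻¹
    simpa using this
  have h2 := hle ⟨_, h1⟩
  simp only at h2
  show n • a = a
  rw [← hg]
  have h3 : g⁻¹ • (n • g • b) = b := by
    simpa [mul_smul] using h2
  rw [inv_smul_eq_iff] at h3
  exact h3

theorem prime_core_eq [Finite G] (hS : IsRankOneSetup G Ω a t Q)
    (h2 : ∃ x y : G, x ≠ 1 ∧ y ≠ 1 ∧ x ≠ y ∧ x * x = 1 ∧ y * y = 1 ∧ x * y = y * x) :
    Cfsg.pPrimeCore 2 G = (stabilizer G a).normalCore := by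
  apply le_antisymm
  · apply sSup_le
    rintro N ⟨hN, hc⟩
    have hodd : Odd (Nat.card N) := Nat.coprime_two_right.1 hc
    exact Subgroup.normal_le_normalCore.2 (odd_normal_le hS h2 N hodd)
  · apply le_sSup
    refine ⟨inferInstance, ?_⟩
    rw [Nat.coprime_two_right]
    by_contra hodd
    have hfact : Fact (Nat.Prime 2) := ⟨Nat.prime_two⟩
    have hev : 2 ∣ Nat.card (stabilizer G a).normalCore := by
      rw [Nat.not_odd_iff_even] at hodd
      exact hodd.two_dvd
    obtain ⟨v, hv⟩ := exists_prime_orderOf_dvd_card' (G := (stabilizer G a).normalCore) 2 hev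
    have hv1 : (v : G) ≠ 1 := by
      intro h
      have : v = 1 := Subtype.ext h
      rw [this, orderOf_one] at hv
      omega
    have hv2 : (v : G) * v = 1 := by
      have := pow_orderOf_eq_one v
      rw [hv, pow_two] at this
      have := congrArg Subtype.val this
      simpa using this
    obtain ⟨g, hg⟩ := conj_t hS hv1 hv2
    have h3 : (v : G) ∈ (stabilizer G a).normalCore := v.2
    have h4 := h3 g
    rw [hg] at h4
    exact hS.not_mem h4

end Setup

end CfsgLib.RankOne
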